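import Mathlib.Algebra.BigOperators.Group.Finset.Basic
import Mathlib.GroupTheory.Subgroup.Centralizer
import Mathlib.GroupTheory.OrderOfElement
import Mathlib.Data.Nat.Prime.Basic
import Mathlib.Data.ZMod.Basic
import Mathlib.Tactic.Group
import Cfsg.Agent.Coprime.TwoGeneratingSets

/-!
A linear-independence trick: if `b` of prime order `q` normalises an abelian `M` without fixing any
nontrivial element of it, and `M` fixes only `1` on an abelian `V`, then the `q` conjugate actions of `M`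
are independent.  Consequently `b` fixes something in `V`, and automorphisms commuting with `b` and `M`
are determined by their effect on the fixed points of `b`.
-/

set_option autoImplicit false

namespace CfsgLib.AbelianFix

open CfsgLib.Coprime

variable {P : Type*} [Group P] {V : Type*} [CommGroup V]

/-- The independence statement. -/
theorem elim (φ : P →* MulAut V) {M : Subgroup P} [Finite M]
    (hMc : ∀ x ∈ M, ∀ y ∈ M, x * y = y * x) {b : P} {q : ℕ} (hq : q.Prime) (hb : b ^ q = 1)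
    (hbM : ∀ m ∈ M, b * m * b⁻¹ ∈ M) (hCb : ∀ m ∈ M, b * m = m * b → m = 1)
    (hfix : ∀ v : V, (∀ m ∈ M, φ m v = v) → v = 1) :
    ∀ S : Finset ℕ, S ⊆ Finset.range q → ∀ u : ℕ → V,
      (∀ m ∈ M, ∏ i ∈ S, φ (b ^ i * m * (b ^ i)⁻¹) (u i) = 1) → ∀ i ∈ S, u i = 1 := by
  have hpow : ∀ (i : ℕ) (m : P), m ∈ M → b ^ i * m * (b ^ i)⁻¹ ∈ M := by
    intro i
    induction i with
    | zero => intro m hm; simpa using hm
    | succ k ih =>
      intro m hm
      have := hbM _ (ih m hm)
      rwa [show b ^ (k + 1) * m * (b ^ (k + 1))⁻¹ = b * (b ^ k * m * (b ^ k)⁻¹) * b⁻¹ by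
        rw [pow_succ']; group]
  -- no power `b ^ j` with `q ∤ j` commutes with a nontrivial element of `M`
  have hfree : ∀ (j : ℕ), ¬ q ∣ j → ∀ m ∈ M, b ^ j * m = m * b ^ j → m = 1 := by
    intro j hj m hm hjm
    obtain ⟨k, hk⟩ := exists_mul_modEq_one (n := j) (k := q)
      ((hq.coprime_iff_not_dvd.mpr hj).symm)
    refine hCb m hm ?_
    have hc : Commute ((b ^ j) ^ k) m := Commute.pow_left hjm k
    rwa [← pow_mul, mul_comm, pow_eq_pow_of_modEq hk hb, pow_one] at hc
  intro S
  induction hn : S.card using Nat.strong_induction_on generalizing S with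
  | _ N ih =>
  intro hS u hrel
  rcases S.eq_empty_or_nonempty with rfl | ⟨k₀, hk₀⟩
  · simp
  -- any two positions: the off positions vanish
  have hkey : ∀ k ∈ S, ∀ i ∈ S, i ≠ k → u i = 1 := by
    intro k hk i hi hik
    refine hfix _ fun w hw => ?_
    -- every element of `M` is `n_k⁻¹ n_i`
    let g : M → M := fun n => ⟨(b ^ k * n * (b ^ k)⁻¹)⁻¹ * (b ^ i * n * (b ^ i)⁻¹),
      mul_mem (inv_mem (hpow k n n.2)) (hpow i n n.2)⟩
    have hginj : Function.Injective g := by
      rintro ⟨x, hx⟩ ⟨y, hy⟩ hxy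
      have he : (b ^ k * x * (b ^ k)⁻¹)⁻¹ * (b ^ i * x * (b ^ i)⁻¹) =
          (b ^ k * y * (b ^ k)⁻¹)⁻¹ * (b ^ i * y * (b ^ i)⁻¹) := congrArg Subtype.val hxy
      set t := x * y⁻¹ with ht
      have htM : t ∈ M := mul_mem hx (inv_mem hy)
      have h1 : b ^ i * t * (b ^ i)⁻¹ = b ^ k * t * (b ^ k)⁻¹ := by
        have e1 : b ^ i * t * (b ^ i)⁻¹ = (b ^ i * x * (b ^ i)⁻¹) * (b ^ i * y * (b ^ i)⁻¹)⁻¹ := by
          rw [ht]; group
        have e2 : b ^ k * t * (b ^ k)⁻¹ = (b ^ k * x * (b ^ k)⁻¹) * (b ^ k * y * (b ^ k)⁻¹)⁻¹ := by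
          rw [ht]; group
        rw [e1, e2]
        have h4 : (b ^ i * x * (b ^ i)⁻¹) =
            (b ^ k * x * (b ^ k)⁻¹) * (b ^ k * y * (b ^ k)⁻¹)⁻¹ * (b ^ i * y * (b ^ i)⁻¹) := by
          rw [mul_assoc (b ^ k * x * (b ^ k)⁻¹), ← he, mul_inv_cancel_left]
        conv_lhs => rw [h4]
        rw [mul_inv_cancel_right]
      have : t = 1 := by
        rcases lt_or_gt_of_ne hik with hlt | hgt
        · refine hfree (k - i) ?_ t htM ?_
          · intro hd
            have := Nat.le_of_dvd (by omega) hd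
            have := Finset.mem_range.mp (hS hk)
            omega
          · have e : b ^ k = b ^ i * b ^ (k - i) := by rw [← pow_add]; congr 1; omega
            rw [e] at h1
            have h2 : b ^ (k - i) * t * (b ^ (k - i))⁻¹ = t := by
              have := congrArg (fun z => (b ^ i)⁻¹ * z * b ^ i) h1
              simpa [mul_assoc] using this.symm
            exact mul_inv_eq_iff_eq_mul.mp h2
        · refine hfree (i - k) ?_ t htM ?_
          · intro hd
            have := Nat.le_of_dvd (by omega) hd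
            have := Finset.mem_range.mp (hS hi)
            omega
          · have e : b ^ i = b ^ k * b ^ (i - k) := by rw [← pow_add]; congr 1; omega
            rw [e] at h1
            have h2 : b ^ (i - k) * t * (b ^ (i - k))⁻¹ = t := by
              have := congrArg (fun z => (b ^ k)⁻¹ * z * b ^ k) h1
              simpa [mul_assoc] using this
            exact mul_inv_eq_iff_eq_mul.mp h2
      exact Subtype.ext (mul_inv_eq_one.mp this)
    obtain ⟨⟨n, hn'⟩, hgn⟩ := (Finite.surjective_of_injective hginj) ⟨w, hw⟩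
    have hw' : (b ^ k * n * (b ^ k)⁻¹)⁻¹ * (b ^ i * n * (b ^ i)⁻¹) = w := congrArg Subtype.val hgn
    -- the reduced relation
    set nk := b ^ k * n * (b ^ k)⁻¹ with hnk
    let u' : ℕ → V := fun j => φ (b ^ j * n * (b ^ j)⁻¹) (u j) / φ nk (u j)
    have hu'k : u' k = 1 := div_self' _
    have hrel' : ∀ m ∈ M, ∏ j ∈ S.erase k, φ (b ^ j * m * (b ^ j)⁻¹) (u' j) = 1 := by
      intro m hm
      rw [Finset.prod_erase S (by rw [hu'k, map_one])]
      have e1 : ∏ j ∈ S, φ (b ^ j * m * (b ^ j)⁻¹) (φ (b ^ j * n * (b ^ j)⁻¹) (u j)) = 1 := by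
        rw [← hrel (m * n) (mul_mem hm hn')]
        refine Finset.prod_congr rfl fun j _ => ?_
        rw [← MulAut.mul_apply, ← map_mul]
        congr 2
        group
      have e2 : ∏ j ∈ S, φ (b ^ j * m * (b ^ j)⁻¹) (φ nk (u j)) = 1 := by
        rw [show (1 : V) = φ nk (∏ j ∈ S, φ (b ^ j * m * (b ^ j)⁻¹) (u j)) by
          rw [hrel m hm, map_one], map_prod]
        refine Finset.prod_congr rfl fun j _ => ?_
        rw [← MulAut.mul_apply, ← map_mul, ← MulAut.mul_apply, ← map_mul,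
          hMc _ (hpow j m hm) _ (hpow k n hn')]
      calc ∏ j ∈ S, φ (b ^ j * m * (b ^ j)⁻¹) (u' j)
          = ∏ j ∈ S, φ (b ^ j * m * (b ^ j)⁻¹) (φ (b ^ j * n * (b ^ j)⁻¹) (u j)) /
              φ (b ^ j * m * (b ^ j)⁻¹) (φ nk (u j)) :=
            Finset.prod_congr rfl fun j _ => map_div _ _ _
        _ = 1 := by rw [Finset.prod_div_distrib, e1, e2, div_one]
    have hlt : (S.erase k).card < N := hn ▸ Finset.card_erase_lt_of_mem hk
    have h := ih _ hlt _ rfl ((Finset.erase_subset k S).trans hS) u' hrel' i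
      (Finset.mem_erase.mpr ⟨hik, hi⟩)
    have h' : φ (b ^ i * n * (b ^ i)⁻¹) (u i) = φ nk (u i) := div_eq_one.mp h
    rw [← hw', map_mul, MulAut.mul_apply, h', ← MulAut.mul_apply, ← map_mul, inv_mul_cancel, map_one]
    rfl
  intro i hi
  by_cases hother : ∃ k ∈ S, k ≠ i
  · obtain ⟨k, hk, hki⟩ := hother
    exact hkey k hk i hi hki.symm
  · push Not at hother
    have hS1 : S = {i} := Finset.eq_singleton_iff_unique_mem.mpr ⟨hi, hother⟩
    have := hrel 1 (one_mem M)
    simpa [hS1] using this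

/-- `b` fixes a nontrivial element. -/
theorem exists_fixed_point [Nontrivial V] (φ : P →* MulAut V) {M : Subgroup P} [Finite M]
    (hMc : ∀ x ∈ M, ∀ y ∈ M, x * y = y * x) {b : P} {q : ℕ} (hq : q.Prime) (hb : b ^ q = 1)
    (hbM : ∀ m ∈ M, b * m * b⁻¹ ∈ M) (hCb : ∀ m ∈ M, b * m = m * b → m = 1)
    (hfix : ∀ v : V, (∀ m ∈ M, φ m v = v) → v = 1) : ∃ v : V, v ≠ 1 ∧ φ b v = v := by
  by_contra hc
  push Not at hc
  obtain ⟨v, hv⟩ := exists_ne (1 : V)
  refine hv ?_
  have h := elim φ hMc hq hb hbM hCb hfix (Finset.range q) subset_rfl (fun i => φ (b ^ i) v)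
    (fun m _ => by
      have : TwoSets.avg φ q b (φ m v) = 1 := by_contra fun hne => hc _ hne (TwoSets.apply_avg hb _)
      rw [TwoSets.avg_apply] at this
      rw [← this]
      refine Finset.prod_congr rfl fun i _ => ?_
      rw [← MulAut.mul_apply, ← map_mul, ← MulAut.mul_apply, ← map_mul]
      congr 2
      group) 0 (Finset.mem_range.mpr hq.pos)
  simpa using h

/-- An automorphism commuting with `b` and `M` and fixing the fixed points of `b` is trivial. -/
theorem apply_eq_self (φ : P →* MulAut V) {M : Subgroup P} [Finite M]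
    (hMc : ∀ x ∈ M, ∀ y ∈ M, x * y = y * x) {b : P} {q : ℕ} (hq : q.Prime) (hb : b ^ q = 1)
    (hbM : ∀ m ∈ M, b * m * b⁻¹ ∈ M) (hCb : ∀ m ∈ M, b * m = m * b → m = 1)
    (hfix : ∀ v : V, (∀ m ∈ M, φ m v = v) → v = 1) (ψ : MulAut V)
    (hψb : ∀ v, ψ (φ b v) = φ b (ψ v)) (hψM : ∀ m ∈ M, ∀ v, ψ (φ m v) = φ m (ψ v))
    (hψfix : ∀ v, φ b v = v → ψ v = v) (v : V) : ψ v = v := by
  have hψpow : ∀ (i : ℕ) (w : V), ψ (φ (b ^ i) w) = φ (b ^ i) (ψ w) := by
    intro i
    induction i with
    | zero => intro w; simp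
    | succ k ih =>
      intro w
      rw [pow_succ, map_mul, MulAut.mul_apply, ih, hψb, MulAut.mul_apply]
  have hsplit : ∀ (i : ℕ) (m : P) (w : V),
      φ (b ^ i) (φ m w) = φ (b ^ i * m * (b ^ i)⁻¹) (φ (b ^ i) w) := fun i m w => by
    rw [← MulAut.mul_apply, ← map_mul, ← MulAut.mul_apply, ← map_mul]
    congr 2
    group
  have h := elim φ hMc hq hb hbM hCb hfix (Finset.range q) subset_rfl
    (fun i => ψ (φ (b ^ i) v) / φ (b ^ i) v) (fun m hm => by
      have e := hψfix _ (TwoSets.apply_avg (φ := φ) hb (φ m v))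
      rw [TwoSets.avg_apply, map_prod, ← div_eq_one, ← Finset.prod_div_distrib] at e
      refine Eq.trans (Finset.prod_congr rfl fun i _ => ?_) e
      rw [hψpow, hψpow, hψM m hm, hsplit, hsplit, ← hψpow, map_div]) 0 (Finset.mem_range.mpr hq.pos)
  simpa [div_eq_one] using h

/-! ### Internal forms -/

variable {X : Type*} [Group X] [Finite X]

open scoped Classical in
/-- Internal form of `exists_fixed_point`. -/
theorem exists_fixed_point_internal {V M : Subgroup X} (hV : IsMulCommutative V) (hV1 : V ≠ ⊥)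
    (hMc : IsMulCommutative M) {b : X} {q : ℕ} (hq : q.Prime) (hb : b ^ q = 1)
    (hMV : M ≤ Subgroup.normalizer (V : Set X)) (hbV : b ∈ Subgroup.normalizer (V : Set X))
    (hbM : b ∈ Subgroup.normalizer (M : Set X)) (hCb : ∀ m ∈ M, b * m = m * b → m = 1)
    (hfix : V ⊓ Subgroup.centralizer (M : Set X) = ⊥) : ∃ v ∈ V, v ≠ 1 ∧ b * v = v * b := by
  haveI : IsMulCommutative V := hV
  haveI : IsMulCommutative M := hMc
  letI : CommGroup V :=
    { (inferInstance : Group V) with mul_comm := fun a c => Subtype.ext (setLike_mul_comm a.2 c.2) }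
  haveI : Nontrivial V := (Subgroup.nontrivial_iff_ne_bot V).mpr hV1
  obtain ⟨v, hv, hfv⟩ := exists_fixed_point (P := Subgroup.normalizer (V : Set X))
    (V.normalizerMonoidHom) (M := M.subgroupOf _)
    (fun x hx y hy => Subtype.ext (setLike_mul_comm (s := M) hx hy)) (b := ⟨b, hbV⟩) hq (Subtype.ext hb)
    (fun m hm => (Subgroup.mem_normalizer_iff.mp hbM m).mp hm)
    (fun m hm h => Subtype.ext (hCb m hm (congrArg Subtype.val h)))
    (fun w hw => Subtype.ext (Subgroup.mem_bot.mp (hfix ▸ Subgroup.mem_inf.mpr ⟨w.2,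
      Subgroup.mem_centralizer_iff.mpr fun m hm => by
        have := congrArg Subtype.val (hw ⟨m, hMV hm⟩ hm)
        exact mul_inv_eq_iff_eq_mul.mp this⟩)))
  exact ⟨v, v.2, fun e => hv (Subtype.ext e), mul_inv_eq_iff_eq_mul.mp (congrArg Subtype.val hfv)⟩

open scoped Classical in
/-- Internal form of `apply_eq_self`. -/
theorem mem_centralizer_internal {V M : Subgroup X} (hV : IsMulCommutative V)
    (hMc : IsMulCommutative M) {b : X} {q : ℕ} (hq : q.Prime) (hb : b ^ q = 1)
    (hMV : M ≤ Subgroup.normalizer (V : Set X)) (hbV : b ∈ Subgroup.normalizer (V : Set X))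
    (hbM : b ∈ Subgroup.normalizer (M : Set X)) (hCb : ∀ m ∈ M, b * m = m * b → m = 1)
    (hfix : V ⊓ Subgroup.centralizer (M : Set X) = ⊥) {y : X}
    (hy : y ∈ Subgroup.normalizer (V : Set X)) (hyb : b * y = y * b)
    (hyM : ∀ m ∈ M, ∀ v ∈ V, y * (m * v * m⁻¹) * y⁻¹ = m * (y * v * y⁻¹) * m⁻¹)
    (hyfix : ∀ v ∈ V, b * v = v * b → y * v = v * y) : y ∈ Subgroup.centralizer (V : Set X) := by
  haveI : IsMulCommutative V := hV
  haveI : IsMulCommutative M := hMc
  letI : CommGroup V :=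
    { (inferInstance : Group V) with mul_comm := fun a c => Subtype.ext (setLike_mul_comm a.2 c.2) }
  have h := apply_eq_self (P := Subgroup.normalizer (V : Set X))
    (V.normalizerMonoidHom) (M := M.subgroupOf _)
    (fun x hx z hz => Subtype.ext (setLike_mul_comm (s := M) hx hz)) (b := ⟨b, hbV⟩) hq (Subtype.ext hb)
    (fun m hm => (Subgroup.mem_normalizer_iff.mp hbM m).mp hm)
    (fun m hm h => Subtype.ext (hCb m hm (congrArg Subtype.val h)))
    (fun w hw => Subtype.ext (Subgroup.mem_bot.mp (hfix ▸ Subgroup.mem_inf.mpr ⟨w.2,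
      Subgroup.mem_centralizer_iff.mpr fun m hm => by
        have := congrArg Subtype.val (hw ⟨m, hMV hm⟩ hm)
        exact mul_inv_eq_iff_eq_mul.mp this⟩)))
    (V.normalizerMonoidHom ⟨y, hy⟩)
    (fun v => by
      apply Subtype.ext
      show y * (b * v * b⁻¹) * y⁻¹ = b * (y * v * y⁻¹) * b⁻¹
      have hyb' : y⁻¹ * b = b * y⁻¹ := ((Commute.inv_left (show Commute y b from hyb.symm))).eq
      calc y * (b * v * b⁻¹) * y⁻¹ = (y * b) * v * (y * b)⁻¹ := by group
        _ = (b * y) * v * (b * y)⁻¹ := by rw [hyb]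
        _ = _ := by group)
    (fun m hm v => Subtype.ext (hyM m hm v v.2))
    (fun v hv => by
      apply Subtype.ext
      show y * (v : X) * y⁻¹ = v
      rw [mul_inv_eq_iff_eq_mul]
      exact hyfix v v.2 (mul_inv_eq_iff_eq_mul.mp (congrArg Subtype.val hv)))
  rw [Subgroup.mem_centralizer_iff]
  intro v hv
  exact (mul_inv_eq_iff_eq_mul.mp (congrArg Subtype.val (h ⟨v, hv⟩))).symm

end CfsgLib.AbelianFix
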