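import Cfsg.Agent.AbelianFix.Basic
import Cfsg.Agent.AbelianFix.Elim
import Mathlib.GroupTheory.Nilpotent

/-!
Two consequences for coprime actions inside the setting `Hyp`:
* an abelian group of fixed points of `a` acting nontrivially forces fixed points of all `b ∉ ⟨a⟩`;
* the derived group of an invariant nilpotent group centralises what it acts on coprimely, provided the
  fixed points commute.
-/

set_option autoImplicit false

namespace CfsgLib.AbelianFix

open CfsgLib.Coprime
open scoped commutatorElement Pointwise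

universe u

variable {X : Type u} [Group X]

theorem le_normalizer_commutator {K P B : Subgroup X} (hP : K ≤ Subgroup.normalizer (P : Set X))
    (hB : K ≤ Subgroup.normalizer (B : Set X)) :
    K ≤ Subgroup.normalizer ((⁅P, B⁆ : Subgroup X) : Set X) := by
  refine le_normalizer_of_conj_mem fun k hk x hx => ?_
  have hle : ⁅P, B⁆ ≤ ⁅P, B⁆.comap (MulAut.conj k).toMonoidHom := Subgroup.commutator_le.mpr
    fun p hp b hb => by
      show k * ⁅p, b⁆ * k⁻¹ ∈ ⁅P, B⁆
      rw [show k * ⁅p, b⁆ * k⁻¹ = ⁅k * p * k⁻¹, k * b * k⁻¹⁆ by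
        simp only [commutatorElement_def]; group]
      exact Subgroup.commutator_mem_commutator (conj_mem_of_le_normalizer hP hk hp)
        (conj_mem_of_le_normalizer hB hk hb)
  exact hle hx

theorem le_normalizer_sup {K P B : Subgroup X} (hP : K ≤ Subgroup.normalizer (P : Set X))
    (hB : K ≤ Subgroup.normalizer (B : Set X)) :
    K ≤ Subgroup.normalizer ((P ⊔ B : Subgroup X) : Set X) := by
  refine le_normalizer_of_conj_mem fun k hk x hx => ?_
  have hle : P ⊔ B ≤ (P ⊔ B).comap (MulAut.conj k).toMonoidHom :=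
    sup_le (fun p hp => Subgroup.mem_sup_left (conj_mem_of_le_normalizer hP hk hp))
      (fun b hb => Subgroup.mem_sup_right (conj_mem_of_le_normalizer hB hk hb))
  exact hle hx

variable [Finite X]

/-- Abelian case of `exists_fixed_of_not_le`. -/
theorem exists_fixed_of_not_le_abelian {q : ℕ} (hq : q.Prime) {b : X} (hb : b ^ q = 1) {V B : Subgroup X}
    (hV : IsMulCommutative V) (hB : IsMulCommutative B) (hBV : B ≤ Subgroup.normalizer (V : Set X))
    (hbV : b ∈ Subgroup.normalizer (V : Set X)) (hbB : b ∈ Subgroup.normalizer (B : Set X))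
    (hCb : ∀ m ∈ B, b * m = m * b → m = 1) (hcop : (Nat.card B).Coprime (Nat.card V))
    (hne : ¬ V ≤ Subgroup.centralizer (B : Set X)) : ∃ v ∈ V, v ≠ 1 ∧ b * v = v * b := by
  set W := ⁅V, B⁆ with hW
  have hWV : W ≤ V := commutator_le_of_le_normalizer hBV
  have hWb : b ∈ Subgroup.normalizer (W : Set X) :=
    le_normalizer_commutator (Subgroup.zpowers_le.mpr hbV) (Subgroup.zpowers_le.mpr hbB)
      (Subgroup.mem_zpowers b)
  obtain ⟨v, hv, hv1, hvb⟩ := exists_fixed_point_internal (V := W) (M := B)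
    ⟨⟨fun x y => Subtype.ext (haveI := hV; setLike_mul_comm (s := V) (hWV x.2) (hWV y.2))⟩⟩
    (fun h => hne (Subgroup.commutator_eq_bot_iff_le_centralizer.mp h)) hB hq hb
    (Subgroup.normalizer_commutator_ge_right V B) hWb hbB hCb
    (commutator_inf_centralizer_eq_bot hV hBV hcop)
  exact ⟨v, hWV hv, hv1, hvb⟩

theorem exists_fixed_of_not_le_normal {q : ℕ} (hq : q.Prime) :
    ∀ (n : ℕ) {X : Type u} [Group X] [Finite X] {b : X} (V B : Subgroup X) [V.Normal],
    Nat.card V = n → Group.IsSolvable V → b ^ q = 1 → ¬ q ∣ Nat.card V → IsMulCommutative B →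
    b ∈ Subgroup.normalizer (B : Set X) → (∀ m ∈ B, b * m = m * b → m = 1) →
    (Nat.card B).Coprime (Nat.card V) → ¬ V ≤ Subgroup.centralizer (B : Set X) →
    ∃ v ∈ V, v ≠ 1 ∧ b * v = v * b := by
  intro n
  induction n using Nat.strong_induction_on with
  | _ n ih =>
  intro X _ _ b V B _ hn hsol hb hqV hB hbB hCb hcop hne
  by_cases hV : IsMulCommutative V
  · exact exists_fixed_of_not_le_abelian hq hb hV hB Subgroup.le_normalizer_of_normal
      (Subgroup.le_normalizer_of_normal (Subgroup.mem_top _)) hbB hCb hcop hne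
  have hV1 : V ≠ ⊥ := fun e => hV (by subst e; exact ⟨⟨fun x y => Subsingleton.elim _ _⟩⟩)
  set D := ⁅V, V⁆ with hD
  haveI : D.Normal := Subgroup.commutator_normal V V
  have hDV : D < V := commutator_self_lt hsol hV1
  by_cases hDB : D ≤ Subgroup.centralizer (B : Set X)
  swap
  · obtain ⟨v, hv, hv1, hvb⟩ := ih _ (hn ▸ Set.Finite.card_lt_card (Set.toFinite _) hDV) D B rfl
      (isSolvable_of_le hDV.le hsol) hb (fun h => hqV (h.trans (Subgroup.card_dvd_of_le hDV.le))) hB hbB hCb
      (hcop.coprime_dvd_right (Subgroup.card_dvd_of_le hDV.le)) hDB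
    exact ⟨v, hDV.le hv, hv1, hvb⟩
  set f := QuotientGroup.mk' D with hf
  haveI : (V.map f).Normal := Subgroup.Normal.map inferInstance f (QuotientGroup.mk'_surjective D)
  have hBD : ∀ y ∈ B, y ∈ D → y = 1 := fun y hy hy' => by
    have : orderOf y = 1 := Nat.Coprime.eq_one_of_dvd
      ((hcop.coprime_dvd_right (Subgroup.card_dvd_of_le hDV.le)).coprime_dvd_left
        (B.orderOf_dvd_natCard hy)) (D.orderOf_dvd_natCard hy')
    exact orderOf_eq_one_iff.mp this
  obtain ⟨v', hv', hv1, hvb⟩ := exists_fixed_of_not_le_abelian (X := X ⧸ D) hq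
    (b := f b) (by rw [← map_pow, hb, map_one]) (V := V.map f) (B := B.map f)
    (by
      refine ⟨⟨?_⟩⟩
      rintro ⟨_, x, hx, rfl⟩ ⟨_, y, hy, rfl⟩
      apply Subtype.ext
      show f x * f y = f y * f x
      rw [← map_mul, ← map_mul, hf, QuotientGroup.mk'_eq_mk']
      refine ⟨⁅y⁻¹, x⁻¹⁆, Subgroup.commutator_mem_commutator (inv_mem hy) (inv_mem hx), ?_⟩
      rw [commutatorElement_def]; group)
    (by
      refine ⟨⟨?_⟩⟩
      rintro ⟨_, x, hx, rfl⟩ ⟨_, y, hy, rfl⟩
      apply Subtype.ext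
      show f x * f y = f y * f x
      rw [← map_mul, ← map_mul, setLike_mul_comm (s := B) hx hy])
    Subgroup.le_normalizer_of_normal (Subgroup.le_normalizer_of_normal (Subgroup.mem_top _))
    (Subgroup.mem_normalizer_iff.mpr fun x => by
      constructor
      · rintro ⟨y, hy, rfl⟩
        exact ⟨b * y * b⁻¹, (Subgroup.mem_normalizer_iff.mp hbB y).mp hy, by simp⟩
      · rintro ⟨y, hy, hyx⟩
        refine ⟨b⁻¹ * y * b, ?_, ?_⟩
        · have := (Subgroup.mem_normalizer_iff.mp (inv_mem hbB) y).mp hy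
          simpa using this
        · rw [map_mul, map_mul, map_inv, hyx]; group)
    (by
      rintro _ ⟨y, hy, rfl⟩ h
      rw [← map_mul, ← map_mul] at h
      have hmem : (b * y * b⁻¹) * y⁻¹ ∈ D := by
        have h1 : f (b * y * b⁻¹ * y⁻¹) = 1 := by
          rw [map_mul, map_mul, h, map_mul, map_inv, map_inv]; group
        exact (QuotientGroup.eq_one_iff _).mp h1
      have h2 := hBD _ (mul_mem ((Subgroup.mem_normalizer_iff.mp hbB y).mp hy) (inv_mem hy)) hmem
      rw [hCb y hy (mul_inv_eq_iff_eq_mul.mp (mul_inv_eq_one.mp h2)), map_one])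
    ((hcop.coprime_dvd_left (Subgroup.card_map_dvd ..)).coprime_dvd_right (Subgroup.card_map_dvd ..))
    (fun hle => hne (le_centralizer_of_stab (N := D)
      (hcop.coprime_dvd_right (Subgroup.card_dvd_of_le hDV.le))
      (Subgroup.commutator_le.mpr fun v hv y hy => by
        rw [← QuotientGroup.eq_one_iff, ← QuotientGroup.mk'_apply, map_commutatorElement,
          commutatorElement_eq_one_iff_mul_comm]
        exact (Subgroup.mem_centralizer_iff.mp (hle ⟨v, hv, rfl⟩) _ ⟨y, hy, rfl⟩).symm) hDB))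
  have hmem : v' ∈ V.map f ⊓ Subgroup.centralizer
      (((Subgroup.zpowers b).map f : Subgroup (X ⧸ D)) : Set (X ⧸ D)) := by
    refine Subgroup.mem_inf.mpr ⟨hv', ?_⟩
    rw [MonoidHom.map_zpowers, centralizer_zpowers_eq, mem_centralizer_one]
    exact hvb
  rw [← map_inf_centralizer hDV.le ?_ (Or.inl (isSolvable_zpowers b)), centralizer_zpowers_eq] at hmem
  swap
  · rw [Nat.card_zpowers]
    exact ((hq.coprime_iff_not_dvd.mpr fun h => hqV (h.trans (Subgroup.card_dvd_of_le hDV.le)))).coprime_dvd_left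
      (orderOf_dvd_of_pow_eq_one hb)
  obtain ⟨v, hv, rfl⟩ := hmem
  exact ⟨v, hv.1, fun e => hv1 (by rw [e, map_one]), mem_centralizer_one.mp hv.2⟩

/-- An abelian `B` without nontrivial fixed points of `b`, acting nontrivially and coprimely on `V`, forces
a nontrivial fixed point of `b` on `V`. -/
theorem exists_fixed_of_not_le {q : ℕ} (hq : q.Prime) {b : X} (hb : b ^ q = 1) {V B : Subgroup X}
    (hsol : Group.IsSolvable V) (hqV : ¬ q ∣ Nat.card V) (hB : IsMulCommutative B)
    (hBV : B ≤ Subgroup.normalizer (V : Set X))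
    (hbV : b ∈ Subgroup.normalizer (V : Set X)) (hbB : b ∈ Subgroup.normalizer (B : Set X))
    (hCb : ∀ m ∈ B, b * m = m * b → m = 1) (hcop : (Nat.card B).Coprime (Nat.card V))
    (hne : ¬ V ≤ Subgroup.centralizer (B : Set X)) : ∃ v ∈ V, v ≠ 1 ∧ b * v = v * b := by
  set N := Subgroup.normalizer (V : Set X)
  have hVN : V ≤ N := Subgroup.le_normalizer
  haveI : (V.subgroupOf N).Normal := Subgroup.normal_in_normalizer
  obtain ⟨v, hv, hv1, hvb⟩ := exists_fixed_of_not_le_normal hq _ (X := N) (b := ⟨b, hbV⟩)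
    (V.subgroupOf N) (B.subgroupOf N) rfl
    (haveI := hsol; Group.isSolvable_of_isSolvable_injective
      (f := (Subgroup.subgroupOfEquivOfLe hVN).toMonoidHom) (Subgroup.subgroupOfEquivOfLe hVN).injective)
    (Subtype.ext hb) (by rwa [Nat.card_congr (Subgroup.subgroupOfEquivOfLe hVN).toEquiv])
    ⟨⟨fun x y => Subtype.ext (Subtype.ext (setLike_mul_comm (s := B) x.2 y.2))⟩⟩
    (Subgroup.mem_normalizer_iff.mpr fun x => Subgroup.mem_normalizer_iff.mp hbB x)
    (fun m hm h => Subtype.ext (hCb m hm (congrArg Subtype.val h)))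
    (by rw [Nat.card_congr (Subgroup.subgroupOfEquivOfLe hVN).toEquiv,
          Nat.card_congr (Subgroup.subgroupOfEquivOfLe hBV).toEquiv]; exact hcop)
    (fun hle => hne fun v hv => Subgroup.mem_centralizer_iff.mpr fun y hy =>
      congrArg Subtype.val (Subgroup.mem_centralizer_iff.mp
        (hle (x := ⟨v, hVN hv⟩) (by exact hv)) ⟨y, hBV hy⟩ hy))
  exact ⟨v, hv, fun e => hv1 (Subtype.ext e), congrArg Subtype.val hvb⟩

/-- The descending central series of `B` computed inside `X`. -/
def lseries (B : Subgroup X) : ℕ → Subgroup X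
  | 0 => B
  | n + 1 => ⁅lseries B n, B⁆

theorem lseries_le (B : Subgroup X) : ∀ n, lseries B n ≤ B
  | 0 => le_rfl
  | n + 1 => (Subgroup.commutator_mono (lseries_le B n) le_rfl).trans (Subgroup.commutator_le_self B)

theorem le_normalizer_lseries {B K : Subgroup X} (hK : K ≤ Subgroup.normalizer (B : Set X)) :
    ∀ n, K ≤ Subgroup.normalizer ((lseries B n : Subgroup X) : Set X)
  | 0 => hK
  | n + 1 => le_normalizer_commutator (le_normalizer_lseries hK n) hK

theorem exists_lseries_eq_bot (B : Subgroup X) (hB : Group.IsNilpotent B) : ∃ n, lseries B n = ⊥ := by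
  obtain ⟨n, hn⟩ := Subgroup.nilpotent_iff_lowerCentralSeries.mp hB
  refine ⟨n, ?_⟩
  have : ∀ k, lseries B k = ((⊤ : Subgroup B).lowerCentralSeries k).map B.subtype := by
    intro k
    induction k with
    | zero => rw [Subgroup.lowerCentralSeries_zero, ← MonoidHom.range_eq_map, Subgroup.range_subtype]; rfl
    | succ k ih =>
      rw [Subgroup.lowerCentralSeries_succ, Subgroup.map_commutator, ← ih, ← MonoidHom.range_eq_map,
        Subgroup.range_subtype]
      rfl
  rw [this, hn, Subgroup.map_bot]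

/-- The derived group acts trivially: abelian module. -/
theorem commutator_le_centralizer_abelian {q : ℕ} {A B : Subgroup X} (hB : Hyp q A B)
    (hnil : Group.IsNilpotent B) (hCA : B ⊓ Subgroup.centralizer (A : Set X) = ⊥) :
    ∀ (n : ℕ) (V : Subgroup X), Nat.card V = n → IsMulCommutative V →
    A ≤ Subgroup.normalizer (V : Set X) → B ≤ Subgroup.normalizer (V : Set X) →
    (Nat.card B).Coprime (Nat.card V) →
    (∀ a ∈ A, a ≠ 1 → ∀ y ∈ B, ∀ v ∈ V, a * y = y * a → a * v = v * a → y * v = v * y) →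
    ⁅B, B⁆ ≤ Subgroup.centralizer (V : Set X) := by
  intro n
  induction n using Nat.strong_induction_on with
  | _ n ih =>
  intro V hn hV hAV hBV hcop hcom
  classical
  obtain ⟨N, hN⟩ := exists_lseries_eq_bot B hnil
  have hex : ∃ k, lseries B k ≤ Subgroup.centralizer (V : Set X) := ⟨N, hN ▸ bot_le⟩
  rcases Nat.eq_zero_or_pos (Nat.find hex) with h0 | hpos
  · have := Nat.find_spec hex
    rw [h0] at this
    exact (Subgroup.commutator_le_self B).trans this
  obtain ⟨k, hk⟩ := Nat.exists_eq_succ_of_ne_zero hpos.ne'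
  have hk1 : ¬ lseries B k ≤ Subgroup.centralizer (V : Set X) := Nat.find_min hex (by omega)
  have hk2 : ⁅lseries B k, B⁆ ≤ Subgroup.centralizer (V : Set X) := by
    have := Nat.find_spec hex
    rw [hk] at this
    exact this
  have hL : Hyp q A (lseries B k) := hB.mono (lseries_le B k) (le_normalizer_lseries hB.norm k)
  obtain ⟨a, ha, ha1, hM⟩ := hL.exists_fix_not_le hk1
  set M := lseries B k ⊓ Subgroup.centralizer ({a} : Set X) with hMdef
  have hMB : M ≤ B := inf_le_left.trans (lseries_le B k)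
  have hMc : IsMulCommutative M := hL.isMulCommutative_fix ha ha1
  have hMV : M ≤ Subgroup.normalizer (V : Set X) := hMB.trans hBV
  have hswap : ∀ y ∈ B, ∀ m ∈ M, ∀ v ∈ V, y * (m * v * m⁻¹) * y⁻¹ = m * (y * v * y⁻¹) * m⁻¹ := by
    intro y hy m hm v hv
    have hc : ⁅m, y⁆ ∈ Subgroup.centralizer (V : Set X) :=
      hk2 (Subgroup.commutator_mem_commutator hm.1 hy)
    have hw : m * (y * v * y⁻¹) * m⁻¹ ∈ V :=
      conj_mem_of_le_normalizer hMV hm (conj_mem_of_le_normalizer hBV hy hv)
    have hyv : y * (m * v * m⁻¹) * y⁻¹ ∈ V :=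
      conj_mem_of_le_normalizer hBV hy (conj_mem_of_le_normalizer hMV hm hv)
    calc y * (m * v * m⁻¹) * y⁻¹
        = ⁅m, y⁆ * (y * (m * v * m⁻¹) * y⁻¹) * ⁅m, y⁆⁻¹ := by
          rw [← Subgroup.mem_centralizer_iff.mp hc _ hyv, mul_inv_cancel_right]
      _ = m * (y * v * y⁻¹) * m⁻¹ := by rw [commutatorElement_def]; group
  set W₀ := V ⊓ Subgroup.centralizer (M : Set X) with hW₀
  by_cases hW : W₀ = ⊥
  · set K := B ⊓ Subgroup.centralizer (V : Set X) with hK
    set Fa := B ⊓ Subgroup.centralizer ({a} : Set X) with hFa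
    have hFaK : Fa ≤ Subgroup.normalizer (K : Set X) :=
      inf_le_left.trans (le_normalizer_inf' Subgroup.le_normalizer (le_normalizer_centralizer hBV))
    have hgen : B ≤ Fa ⊔ K := by
      refine hB.le_of_fix fun b hb hb1 => ?_
      by_cases hba : b ∈ Subgroup.zpowers a
      · have heq : Subgroup.zpowers b = Subgroup.zpowers a := Subgroup.eq_of_le_of_card_ge
          (Subgroup.zpowers_le.mpr hba)
          (by rw [Nat.card_zpowers, Nat.card_zpowers, hB.orderOf_eq hb hb1, hB.orderOf_eq ha ha1])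
        rw [← centralizer_zpowers_eq b, heq, centralizer_zpowers_eq a]
        exact le_sup_left
      · refine le_trans (fun y hy => Subgroup.mem_inf.mpr ⟨hy.1, ?_⟩) le_sup_right
        have hby := mem_centralizer_one.mp hy.2
        refine mem_centralizer_internal hV hMc hB.prime (hB.exp b hb) hMV (hAV hb)
          (hL.norm_fix ha hb) (fun m hm hbm => ?_) hW (hBV hy.1) hby (fun m hm v hv => hswap y hy.1 m hm v hv)
          (fun v hv hbv => hcom b hb hb1 y hy.1 v hv hby hbv)
        exact Subgroup.mem_bot.mp (hCA ▸ Subgroup.mem_inf.mpr ⟨hMB hm,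
          hB.mem_centralizer_of_two ha ha1 hb hba (mem_centralizer_one.mp hm.2) hbm⟩)
    refine Subgroup.commutator_le.mpr fun x hx y hy => ?_
    have hset := Subgroup.coe_mul_of_left_le_normalizer_right Fa K hFaK
    obtain ⟨f, hf, k₁, hk₁, rfl⟩ : x ∈ (Fa : Set X) * (K : Set X) := hset ▸ hgen hx
    obtain ⟨f', hf', k₂, hk₂, rfl⟩ : y ∈ (Fa : Set X) * (K : Set X) := hset ▸ hgen hy
    have hff : f * f' = f' * f := hB.abel a ha ha1 f hf.1 f' hf'.1 (mem_centralizer_one.mp hf.2)
      (mem_centralizer_one.mp hf'.2)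
    have e : ⁅f * k₁, f' * k₂⁆ = (f * f') * (((f'⁻¹ * k₁ * f') * k₂) * ((f⁻¹ * k₂ * f) * k₁)⁻¹) *
        (f' * f)⁻¹ := by
      rw [commutatorElement_def]; group
    show ⁅f * k₁, f' * k₂⁆ ∈ _
    have hfN : f' * f ∈ Fa := mul_mem hf' hf
    rw [e, hff]
    exact (Subgroup.mem_inf.mp (conj_mem_of_le_normalizer hFaK hfN (mul_mem
      (mul_mem (conj_mem_of_le_normalizer' hFaK hf' hk₁) hk₂)
      (inv_mem (mul_mem (conj_mem_of_le_normalizer' hFaK hf hk₂) hk₁))))).2
  · have hMcop : (Nat.card M).Coprime (Nat.card V) := coprime_of_le hMB le_rfl hcop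
    set W₁ := ⁅V, M⁆ with hW₁
    have hW₁V : W₁ ≤ V := commutator_le_of_le_normalizer hMV
    have hdis : W₁ ⊓ Subgroup.centralizer (M : Set X) = ⊥ :=
      commutator_inf_centralizer_eq_bot hV hMV hMcop
    have hsum : W₁ ⊔ W₀ = V := commutator_sup_centralizer_of_comm hV hMV hMcop
    have hlt₀ : W₀ < V := by
      refine lt_of_le_of_ne inf_le_left fun e => hM ?_
      exact Subgroup.le_centralizer_iff.mp (e ▸ inf_le_right)
    have hlt₁ : W₁ < V := lt_of_le_of_ne hW₁V fun e => hW (by rw [hW₀, ← e, hdis])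
    have hBW₀ : B ≤ Subgroup.normalizer (W₀ : Set X) := by
      refine le_normalizer_of_conj_mem fun y hy w hw => Subgroup.mem_inf.mpr
        ⟨conj_mem_of_le_normalizer hBV hy hw.1, Subgroup.mem_centralizer_iff.mpr fun m hm => ?_⟩
      have h1 : m * w = w * m := Subgroup.mem_centralizer_iff.mp hw.2 m hm
      have h2 := (hswap y hy m hm w hw.1).symm
      rw [h1, mul_inv_cancel_right] at h2
      exact mul_inv_eq_iff_eq_mul.mp h2
    have hBW₁ : B ≤ Subgroup.normalizer (W₁ : Set X) := by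
      refine le_normalizer_of_conj_mem fun y hy x hx => ?_
      have hle : W₁ ≤ W₁.comap (MulAut.conj y).toMonoidHom := Subgroup.commutator_le.mpr
        fun v hv m hm => by
          show y * ⁅v, m⁆ * y⁻¹ ∈ W₁
          have e : y * ⁅v, m⁆ * y⁻¹ = (y * v * y⁻¹) * (y * (m * v⁻¹ * m⁻¹) * y⁻¹) := by
            rw [commutatorElement_def]; group
          rw [e, hswap y hy m hm _ (inv_mem hv)]
          have e2 : (y * v * y⁻¹) * (m * (y * v⁻¹ * y⁻¹) * m⁻¹) = ⁅y * v * y⁻¹, m⁆ := by
            rw [commutatorElement_def]; group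
          rw [e2]
          exact Subgroup.commutator_mem_commutator (conj_mem_of_le_normalizer hBV hy hv) hm
      exact hle hx
    have hcomm' : ∀ W : Subgroup X, W ≤ V → IsMulCommutative W := fun W hWV =>
      ⟨⟨fun x y => Subtype.ext (haveI := hV; setLike_mul_comm (s := V) (hWV x.2) (hWV y.2))⟩⟩
    have h₀ := ih _ (hn ▸ Set.Finite.card_lt_card (Set.toFinite _) hlt₀) W₀ rfl (hcomm' _ hlt₀.le)
      (le_normalizer_inf' hAV (le_normalizer_centralizer (hL.norm_fix ha))) hBW₀
      (hcop.coprime_dvd_right (Subgroup.card_dvd_of_le hlt₀.le))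
      (fun c hc hc1 y hy v hv => hcom c hc hc1 y hy v hv.1)
    have h₁ := ih _ (hn ▸ Set.Finite.card_lt_card (Set.toFinite _) hlt₁) W₁ rfl (hcomm' _ hlt₁.le)
      (le_normalizer_commutator hAV (hL.norm_fix ha)) hBW₁
      (hcop.coprime_dvd_right (Subgroup.card_dvd_of_le hlt₁.le))
      (fun c hc hc1 y hy v hv => hcom c hc hc1 y hy v (hW₁V hv))
    rw [Subgroup.le_centralizer_iff, ← hsum]
    exact sup_le (Subgroup.le_centralizer_iff.mp h₁) (Subgroup.le_centralizer_iff.mp h₀)

/-- The derived group of an invariant nilpotent group centralises the normal solvable `P` it acts on. -/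
theorem commutator_le_centralizer_normal {q : ℕ} :
    ∀ (n : ℕ) {X : Type u} [Group X] [Finite X] {A B : Subgroup X} (P : Subgroup X) [P.Normal],
    Nat.card P = n → Group.IsSolvable P → Hyp q A (B ⊔ P) → A ≤ Subgroup.normalizer (B : Set X) →
    Group.IsNilpotent B → B ⊓ Subgroup.centralizer (A : Set X) = ⊥ →
    (Nat.card B).Coprime (Nat.card P) → ⁅B, B⁆ ≤ Subgroup.centralizer (P : Set X) := by
  intro n
  induction n using Nat.strong_induction_on with
  | _ n ih =>
  intro X _ _ A B P _ hn hsol hK hAB hnil hCA hcop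
  have hB : Hyp q A B := hK.mono le_sup_left hAB
  by_cases hP : IsMulCommutative P
  · exact commutator_le_centralizer_abelian hB hnil hCA _ P rfl hP Subgroup.le_normalizer_of_normal
      Subgroup.le_normalizer_of_normal hcop
      (fun a ha ha1 y hy v hv => hK.abel a ha ha1 y (Subgroup.mem_sup_left hy) v (Subgroup.mem_sup_right hv))
  have hP1 : P ≠ ⊥ := fun e => hP (by subst e; exact ⟨⟨fun x y => Subsingleton.elim _ _⟩⟩)
  set D := ⁅P, P⁆ with hD
  haveI : D.Normal := Subgroup.commutator_normal P P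
  have hDP : D < P := commutator_self_lt hsol hP1
  have hcopD : (Nat.card B).Coprime (Nat.card D) := hcop.coprime_dvd_right (Subgroup.card_dvd_of_le hDP.le)
  have h₁ := ih _ (hn ▸ Set.Finite.card_lt_card (Set.toFinite _) hDP) D (A := A) (B := B) rfl
    (isSolvable_of_le hDP.le hsol)
    (hK.mono (sup_le_sup_left hDP.le B) (le_normalizer_sup hAB Subgroup.le_normalizer_of_normal))
    hAB hnil hCA hcopD
  set f := QuotientGroup.mk' D with hf
  haveI : (P.map f).Normal := Subgroup.Normal.map inferInstance f (QuotientGroup.mk'_surjective D)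
  have hBD : ∀ y ∈ B, y ∈ D → y = 1 := fun y hy hy' => orderOf_eq_one_iff.mp
    (Nat.Coprime.eq_one_of_dvd (hcopD.coprime_dvd_left (B.orderOf_dvd_natCard hy))
      (D.orderOf_dvd_natCard hy'))
  have hKq := hK.quotient D (hDP.le.trans le_sup_right)
  rw [Subgroup.map_sup] at hKq
  have hABq : A.map f ≤ Subgroup.normalizer ((B.map f : Subgroup (X ⧸ D)) : Set (X ⧸ D)) := by
    refine le_normalizer_of_conj_mem ?_
    rintro _ ⟨b, hb, rfl⟩ _ ⟨g, hg, rfl⟩
    exact ⟨b * g * b⁻¹, conj_mem_of_le_normalizer hAB hb hg, by simp⟩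
  have hstab := commutator_le_centralizer_abelian (hKq.mono le_sup_left hABq)
    (Group.nilpotent_of_surjective _ (f.subgroupMap_surjective B)) ?_ _ (P.map f) rfl ?_
    Subgroup.le_normalizer_of_normal Subgroup.le_normalizer_of_normal
    ((hcop.coprime_dvd_left (Subgroup.card_map_dvd ..)).coprime_dvd_right (Subgroup.card_map_dvd ..))
    (fun a ha ha1 y hy v hv => hKq.abel a ha ha1 y (Subgroup.mem_sup_left hy) v (Subgroup.mem_sup_right hv))
  · rw [← Subgroup.map_commutator] at hstab
    refine (Subgroup.le_centralizer_iff).mp (le_centralizer_of_stab (N := D)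
      (coprime_of_le (Subgroup.commutator_le_self B) le_rfl hcopD) ?_ (Subgroup.le_centralizer_iff.mp h₁))
    refine Subgroup.commutator_le.mpr fun v hv y hy => ?_
    rw [← QuotientGroup.eq_one_iff, ← QuotientGroup.mk'_apply, map_commutatorElement,
      commutatorElement_eq_one_iff_mul_comm]
    exact Subgroup.mem_centralizer_iff.mp (hstab ⟨y, hy, rfl⟩) _ ⟨v, hv, rfl⟩
  · rw [eq_bot_iff]
    rintro _ ⟨⟨y, hy, rfl⟩, hyA⟩
    refine Subgroup.mem_bot.mpr ?_
    suffices y = 1 by rw [this, map_one]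
    refine Subgroup.mem_bot.mp (hCA ▸ Subgroup.mem_inf.mpr ⟨hy, Subgroup.mem_centralizer_iff.mpr
      fun a ha => ?_⟩)
    have h := Subgroup.mem_centralizer_iff.mp hyA _ ⟨a, ha, rfl⟩
    have hmem : (a * y * a⁻¹) * y⁻¹ ∈ D := by
      have h1 : f (a * y * a⁻¹ * y⁻¹) = 1 := by
        have h' : f a * f y = f y * f a := h
        rw [map_mul, map_mul, map_mul, h', map_inv, map_inv]; group
      exact (QuotientGroup.eq_one_iff _).mp h1
    exact mul_inv_eq_iff_eq_mul.mp (mul_inv_eq_one.mp
      (hBD _ (mul_mem (conj_mem_of_le_normalizer hAB ha hy) (inv_mem hy)) hmem))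
  · refine ⟨⟨?_⟩⟩
    rintro ⟨_, x, hx, rfl⟩ ⟨_, y, hy, rfl⟩
    apply Subtype.ext
    show f x * f y = f y * f x
    rw [← map_mul, ← map_mul, hf, QuotientGroup.mk'_eq_mk']
    refine ⟨⁅y⁻¹, x⁻¹⁆, Subgroup.commutator_mem_commutator (inv_mem hy) (inv_mem hx), ?_⟩
    rw [commutatorElement_def]; group

/-- Wrapper for a subgroup `P` normalised by `A` and `B`. -/
theorem commutator_le_centralizer {q : ℕ} {A B P : Subgroup X} (hsol : Group.IsSolvable P)
    (hK : Hyp q A (B ⊔ P)) (hAB : A ≤ Subgroup.normalizer (B : Set X))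
    (hAP : A ≤ Subgroup.normalizer (P : Set X)) (hBP : B ≤ Subgroup.normalizer (P : Set X))
    (hnil : Group.IsNilpotent B) (hCA : B ⊓ Subgroup.centralizer (A : Set X) = ⊥)
    (hcop : (Nat.card B).Coprime (Nat.card P)) : ⁅B, B⁆ ≤ Subgroup.centralizer (P : Set X) := by
  set N := Subgroup.normalizer (P : Set X)
  have hPN : P ≤ N := Subgroup.le_normalizer
  haveI : (P.subgroupOf N).Normal := Subgroup.normal_in_normalizer
  have h := commutator_le_centralizer_normal (q := q) _ (X := N) (A := A.subgroupOf N) (B := B.subgroupOf N)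
    (P.subgroupOf N) rfl
    (haveI := hsol; Group.isSolvable_of_isSolvable_injective
      (f := (Subgroup.subgroupOfEquivOfLe hPN).toMonoidHom) (Subgroup.subgroupOfEquivOfLe hPN).injective)
    (by rw [← Subgroup.subgroupOf_sup hBP hPN]; exact hK.subgroupOf hAP (sup_le hBP hPN))
    (le_normalizer_of_conj_mem fun a ha g hg => conj_mem_of_le_normalizer hAB ha hg)
    (haveI := hnil; Group.nilpotent_of_mulEquiv (Subgroup.subgroupOfEquivOfLe hBP).symm)
    (by
      rw [eq_bot_iff]
      rintro y ⟨hy, hyA⟩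
      refine Subgroup.mem_bot.mpr (Subtype.ext (Subgroup.mem_bot.mp (hCA ▸ Subgroup.mem_inf.mpr ⟨hy,
        Subgroup.mem_centralizer_iff.mpr fun a ha =>
          congrArg Subtype.val (Subgroup.mem_centralizer_iff.mp hyA ⟨a, hAP ha⟩ ha)⟩))))
    (by rw [Nat.card_congr (Subgroup.subgroupOfEquivOfLe hPN).toEquiv,
          Nat.card_congr (Subgroup.subgroupOfEquivOfLe hBP).toEquiv]; exact hcop)
  rw [Subgroup.commutator_le]
  intro x hx y hy
  rw [Subgroup.mem_centralizer_iff]
  intro v hv
  exact congrArg Subtype.val (Subgroup.mem_centralizer_iff.mp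
    (h (Subgroup.commutator_mem_commutator (g₁ := (⟨x, hBP hx⟩ : N)) (g₂ := ⟨y, hBP hy⟩) hx hy))
    ⟨v, hPN hv⟩ hv)

end CfsgLib.AbelianFix
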