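import Cfsg.Agent.Coprime.Generation
import Mathlib.GroupTheory.SpecificGroups.Cyclic
import Mathlib.Tactic.Group
import Mathlib.Tactic.Ring
import Mathlib.Tactic.Linarith

/-!
The standing hypothesis "an elementary abelian group `A` of order `q²` acts coprimely on `G` with all
fixed-point subgroups abelian" and its inheritance properties.
-/

set_option autoImplicit false

namespace CfsgLib.AbelianFix

open CfsgLib.Coprime

variable {X : Type*} [Group X]

theorem mem_centralizer_one {a x : X} :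
    x ∈ Subgroup.centralizer ({a} : Set X) ↔ a * x = x * a := by
  rw [Subgroup.mem_centralizer_iff]
  simp

theorem centralizer_zpowers_eq (a : X) :
    Subgroup.centralizer (Subgroup.zpowers a : Set X) = Subgroup.centralizer ({a} : Set X) := by
  rw [Subgroup.zpowers_eq_closure, Subgroup.centralizer_closure]

theorem centralizer_map_le {Y : Type*} [Group Y] (f : X →* Y) (S : Subgroup X) :
    (Subgroup.centralizer (S : Set X)).map f ≤ Subgroup.centralizer ((S.map f : Subgroup Y) : Set Y) := by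
  rintro _ ⟨x, hx, rfl⟩
  rw [Subgroup.mem_centralizer_iff]
  rintro _ ⟨s, hs, rfl⟩
  rw [← map_mul, ← map_mul, Subgroup.mem_centralizer_iff.mp hx s hs]

/-- `A` is elementary abelian of order `q²`, acts coprimely on `G`, and all fixed-point subgroups are
abelian. -/
structure Hyp (q : ℕ) (A G : Subgroup X) : Prop where
  prime : q.Prime
  comm : IsMulCommutative A
  exp : ∀ a ∈ A, a ^ q = 1
  card : Nat.card A = q ^ 2
  norm : A ≤ Subgroup.normalizer (G : Set X)
  cop : ¬ q ∣ Nat.card G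
  abel : ∀ a ∈ A, a ≠ 1 → ∀ x ∈ G, ∀ y ∈ G, a * x = x * a → a * y = y * a → x * y = y * x

variable {q : ℕ} {A G : Subgroup X}

theorem Hyp.commute (h : Hyp q A G) {a b : X} (ha : a ∈ A) (hb : b ∈ A) : a * b = b * a :=
  haveI := h.comm
  setLike_mul_comm ha hb

theorem Hyp.not_isCyclic [Finite X] (h : Hyp q A G) : ¬ IsCyclic A := by
  intro hc
  obtain ⟨g, hg⟩ := hc.exists_generator
  have h1 : orderOf g = Nat.card A := orderOf_eq_card_of_forall_mem_zpowers hg
  have h2 : orderOf g ∣ q := orderOf_dvd_of_pow_eq_one (Subtype.ext (h.exp g g.2))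
  have h3 := Nat.le_of_dvd h.prime.pos h2
  rw [h1, h.card] at h3
  have := h.prime.two_le
  nlinarith

theorem Hyp.coprime (h : Hyp q A G) : (Nat.card A).Coprime (Nat.card G) := by
  rw [h.card]
  exact Nat.Coprime.pow_left 2 (h.prime.coprime_iff_not_dvd.mpr h.cop)

theorem Hyp.solvable [Finite X] (h : Hyp q A G) : Group.IsSolvable A :=
  haveI := Fact.mk h.prime
  isSolvable_of_isPGroup (IsPGroup.of_card h.card)

theorem Hyp.orderOf_eq (h : Hyp q A G) {a : X} (ha : a ∈ A) (ha1 : a ≠ 1) : orderOf a = q :=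
  haveI := Fact.mk h.prime
  orderOf_eq_prime (h.exp a ha) ha1

theorem Hyp.coprime_zpowers [Finite X] (h : Hyp q A G) {a : X} (ha : a ∈ A) :
    (Nat.card (Subgroup.zpowers a)).Coprime (Nat.card G) :=
  coprime_of_le (Subgroup.zpowers_le.mpr ha) le_rfl h.coprime

theorem Hyp.mono [Finite X] (h : Hyp q A G) {H : Subgroup X} (hHG : H ≤ G)
    (hAH : A ≤ Subgroup.normalizer (H : Set X)) : Hyp q A H :=
  ⟨h.prime, h.comm, h.exp, h.card, hAH, fun hd => h.cop (hd.trans (Subgroup.card_dvd_of_le hHG)),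
    fun a ha ha1 x hx y hy => h.abel a ha ha1 x (hHG hx) y (hHG hy)⟩

theorem Hyp.norm_centralizer_one (h : Hyp q A G) {a : X} (ha : a ∈ A) :
    A ≤ Subgroup.normalizer ((Subgroup.centralizer ({a} : Set X) : Subgroup X) : Set X) := by
  rw [← centralizer_zpowers_eq]
  refine le_normalizer_centralizer (le_normalizer_of_conj_mem fun b hb x hx => ?_)
  obtain ⟨n, rfl⟩ := hx
  have : b * a ^ n * b⁻¹ = a ^ n := by
    rw [h.commute hb (zpow_mem ha n), mul_inv_cancel_right]
  exact ⟨n, this.symm⟩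

theorem Hyp.norm_fix (h : Hyp q A G) {a : X} (ha : a ∈ A) :
    A ≤ Subgroup.normalizer ((G ⊓ Subgroup.centralizer ({a} : Set X) : Subgroup X) : Set X) :=
  le_normalizer_inf' h.norm (h.norm_centralizer_one ha)

theorem Hyp.isMulCommutative_fix (h : Hyp q A G) {a : X} (ha : a ∈ A) (ha1 : a ≠ 1) :
    IsMulCommutative (G ⊓ Subgroup.centralizer ({a} : Set X) : Subgroup X) :=
  ⟨⟨fun x y => Subtype.ext (h.abel a ha ha1 x x.2.1 y y.2.1 (mem_centralizer_one.mp x.2.2)
    (mem_centralizer_one.mp y.2.2))⟩⟩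

theorem Hyp.le_of_fix [Finite X] (h : Hyp q A G) {K : Subgroup X}
    (hK : ∀ a ∈ A, a ≠ 1 → G ⊓ Subgroup.centralizer ({a} : Set X) ≤ K) : G ≤ K :=
  le_of_centralizers h.comm h.not_isCyclic h.norm h.coprime hK

theorem Hyp.exists_fix_not_le [Finite X] (h : Hyp q A G) {K : Subgroup X} (hK : ¬ G ≤ K) :
    ∃ a ∈ A, a ≠ 1 ∧ ¬ G ⊓ Subgroup.centralizer ({a} : Set X) ≤ K := by
  by_contra hc
  push Not at hc
  exact hK (h.le_of_fix hc)

/-- `A = ⟨a, b⟩` for `b ∉ ⟨a⟩`. -/
theorem Hyp.le_sup_zpowers [Finite X] (h : Hyp q A G) {a b : X} (ha : a ∈ A) (ha1 : a ≠ 1)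
    (hb : b ∈ A) (hba : b ∉ Subgroup.zpowers a) : A ≤ Subgroup.zpowers a ⊔ Subgroup.zpowers b := by
  have hsub : Subgroup.zpowers a ⊔ Subgroup.zpowers b ≤ A :=
    sup_le (Subgroup.zpowers_le.mpr ha) (Subgroup.zpowers_le.mpr hb)
  have hlt : Subgroup.zpowers a < Subgroup.zpowers a ⊔ Subgroup.zpowers b :=
    lt_of_le_of_ne le_sup_left fun e => hba (e ▸ le_sup_right (a := Subgroup.zpowers a)
      (Subgroup.mem_zpowers b))
  obtain ⟨k, hk, hk'⟩ := (Nat.dvd_prime_pow h.prime).mp (h.card ▸ Subgroup.card_dvd_of_le hsub)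
  have hk2 : k = 2 := by
    rcases Nat.lt_or_ge k 2 with h2 | h2
    · refine absurd (Subgroup.eq_of_le_of_card_ge hlt.le ?_) hlt.ne
      rw [Nat.card_zpowers, h.orderOf_eq ha ha1, hk']
      calc q ^ k ≤ q ^ 1 := Nat.pow_le_pow_right h.prime.pos (by omega)
        _ = q := pow_one q
    · omega
  exact (Subgroup.eq_of_le_of_card_ge hsub (by rw [hk', hk2, h.card])).ge

theorem Hyp.mem_centralizer_of_two [Finite X] (h : Hyp q A G) {a b : X} (ha : a ∈ A) (ha1 : a ≠ 1)
    (hb : b ∈ A) (hba : b ∉ Subgroup.zpowers a) {x : X} (hxa : a * x = x * a) (hxb : b * x = x * b) :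
    x ∈ Subgroup.centralizer (A : Set X) := by
  refine Subgroup.mem_centralizer_iff.mpr fun y hy => ?_
  have hle : A ≤ Subgroup.centralizer ({x} : Set X) := (h.le_sup_zpowers ha ha1 hb hba).trans
    (sup_le (Subgroup.zpowers_le.mpr (mem_centralizer_one.mpr hxa.symm))
      (Subgroup.zpowers_le.mpr (mem_centralizer_one.mpr hxb.symm)))
  exact (mem_centralizer_one.mp (hle hy)).symm

theorem Hyp.exists_avoid [Finite X] (h : Hyp q A G) (hq3 : 3 ≤ q) {a b c : X}
    (ha : a ∈ A) (hb : b ∈ A) (hc : c ∈ A) :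
    ∃ x ∈ A, x ∉ Subgroup.zpowers a ∧ x ∉ Subgroup.zpowers b ∧ x ∉ Subgroup.zpowers c := by
  by_contra hcon
  push Not at hcon
  have hsub : (A : Set X) ⊆ (Subgroup.zpowers a : Set X) ∪ (((Subgroup.zpowers b : Set X) \ {1}) ∪
      ((Subgroup.zpowers c : Set X) \ {1})) := by
    intro x hx
    by_cases h1 : x ∈ Subgroup.zpowers a
    · exact Or.inl h1
    have hx1 : x ≠ 1 := fun e => h1 (e ▸ one_mem _)
    by_cases h2 : x ∈ Subgroup.zpowers b
    · exact Or.inr (Or.inl ⟨h2, by simpa using hx1⟩)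
    · exact Or.inr (Or.inr ⟨hcon x hx h1 h2, by simpa using hx1⟩)
  have hle : ∀ y ∈ A, (Subgroup.zpowers y : Set X).ncard ≤ q := fun y hy => by
    rw [← Nat.card_coe_set_eq]
    show Nat.card (Subgroup.zpowers y) ≤ q
    rw [Nat.card_zpowers]
    exact Nat.le_of_dvd h.prime.pos (orderOf_dvd_of_pow_eq_one (h.exp y hy))
  have hdiff : ∀ y ∈ A, ((Subgroup.zpowers y : Set X) \ {1}).ncard ≤ q - 1 := fun y hy => by
    rw [Set.ncard_sdiff_singleton_of_mem (one_mem _)]
    exact Nat.sub_le_sub_right (hle y hy) 1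
  have hA : (A : Set X).ncard = q ^ 2 := by rw [← Nat.card_coe_set_eq]; exact h.card
  have h1 := Set.ncard_le_ncard hsub (Set.toFinite _)
  have h2 := Set.ncard_union_le (Subgroup.zpowers a : Set X) (((Subgroup.zpowers b : Set X) \ {1}) ∪
    ((Subgroup.zpowers c : Set X) \ {1}))
  have h3 := Set.ncard_union_le ((Subgroup.zpowers b : Set X) \ {1}) ((Subgroup.zpowers c : Set X) \ {1})
  have := hle a ha
  have := hdiff b hb
  have := hdiff c hc
  have : 3 * q ≤ q ^ 2 := by rw [sq]; exact Nat.mul_le_mul_right q hq3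
  omega

/-- Passing to a subgroup containing `A` and `G`. -/
theorem Hyp.subgroupOf (h : Hyp q A G) {Y : Subgroup X} (hAY : A ≤ Y) (hGY : G ≤ Y) :
    Hyp q (A.subgroupOf Y) (G.subgroupOf Y) := by
  refine ⟨h.prime, ⟨⟨fun x y => Subtype.ext (Subtype.ext (h.commute x.2 y.2))⟩⟩,
    fun a ha => Subtype.ext (h.exp a ha), ?_, ?_, ?_, ?_⟩
  · rw [Nat.card_congr (Subgroup.subgroupOfEquivOfLe hAY).toEquiv]; exact h.card
  · exact le_normalizer_of_conj_mem fun a ha g hg => conj_mem_of_le_normalizer h.norm ha hg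
  · rw [Nat.card_congr (Subgroup.subgroupOfEquivOfLe hGY).toEquiv]; exact h.cop
  · intro a ha ha1 x hx y hy h1 h2
    exact Subtype.ext (h.abel a ha (fun e => ha1 (Subtype.ext e)) x hx y hy
      (congrArg Subtype.val h1) (congrArg Subtype.val h2))

/-- Fixed points of quotients lift. -/
theorem Hyp.exists_lift [Finite X] (h : Hyp q A G) (N : Subgroup X) [N.Normal] (hN : N ≤ G) {a : X}
    (ha : a ∈ A) {x : X} (hx : x ∈ G) (hc : QuotientGroup.mk' N (a * x) = QuotientGroup.mk' N (x * a)) :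
    ∃ y ∈ G, a * y = y * a ∧ QuotientGroup.mk' N y = QuotientGroup.mk' N x := by
  have hcomm : Commute (QuotientGroup.mk' N a) (QuotientGroup.mk' N x) := by
    rw [Commute, SemiconjBy, ← map_mul, ← map_mul, hc]
  have hmem : QuotientGroup.mk' N x ∈ G.map (QuotientGroup.mk' N) ⊓ Subgroup.centralizer
      (((Subgroup.zpowers a).map (QuotientGroup.mk' N) : Subgroup (X ⧸ N)) : Set (X ⧸ N)) := by
    refine Subgroup.mem_inf.mpr ⟨⟨x, hx, rfl⟩, ?_⟩
    rw [MonoidHom.map_zpowers, centralizer_zpowers_eq, mem_centralizer_one]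
    exact hcomm
  rw [← map_inf_centralizer hN (coprime_of_le (Subgroup.zpowers_le.mpr ha) hN h.coprime)
    (Or.inl (isSolvable_zpowers a)), centralizer_zpowers_eq] at hmem
  obtain ⟨y, hy, hyx⟩ := hmem
  exact ⟨y, hy.1, mem_centralizer_one.mp hy.2, hyx⟩

/-- The hypothesis passes to quotients. -/
theorem Hyp.quotient [Finite X] (h : Hyp q A G) (N : Subgroup X) [N.Normal] (hN : N ≤ G) :
    Hyp q (A.map (QuotientGroup.mk' N)) (G.map (QuotientGroup.mk' N)) := by
  refine ⟨h.prime, ?_, ?_, ?_, ?_, fun hd => h.cop (hd.trans (Subgroup.card_map_dvd ..)), ?_⟩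
  · refine ⟨⟨?_⟩⟩
    rintro ⟨_, x, hx, rfl⟩ ⟨_, y, hy, rfl⟩
    apply Subtype.ext
    show QuotientGroup.mk' N x * QuotientGroup.mk' N y = QuotientGroup.mk' N y * QuotientGroup.mk' N x
    rw [← map_mul, ← map_mul, h.commute hx hy]
  · rintro _ ⟨a, ha, rfl⟩
    rw [← map_pow, h.exp a ha, map_one]
  · rw [← h.card]
    refine (Nat.card_congr (Equiv.ofBijective
      (fun a : A => (⟨QuotientGroup.mk' N a, a, a.2, rfl⟩ : A.map (QuotientGroup.mk' N))) ⟨?_, ?_⟩)).symm
    · intro a b hab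
      have h1 : ((a : X)⁻¹ * b) ∈ N := QuotientGroup.eq.mp (congrArg Subtype.val hab)
      have hd : orderOf ((a : X)⁻¹ * b) = 1 := Nat.Coprime.eq_one_of_dvd
        (((h.coprime.coprime_dvd_right (Subgroup.card_dvd_of_le hN)).coprime_dvd_left
          (A.orderOf_dvd_natCard (mul_mem (inv_mem a.2) b.2))))
        (N.orderOf_dvd_natCard h1)
      exact Subtype.ext (inv_mul_eq_one.mp (orderOf_eq_one_iff.mp hd))
    · rintro ⟨_, a, ha, rfl⟩
      exact ⟨⟨a, ha⟩, rfl⟩
  · rintro _ ⟨a, ha, rfl⟩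
    exact le_normalizer_of_conj_mem (A := A.map (QuotientGroup.mk' N))
      (by rintro _ ⟨b, hb, rfl⟩ _ ⟨g, hg, rfl⟩
          exact ⟨b * g * b⁻¹, conj_mem_of_le_normalizer h.norm hb hg, by simp⟩) ⟨a, ha, rfl⟩
  · rintro _ ⟨a, ha, rfl⟩ ha1 _ ⟨x, hx, rfl⟩ _ ⟨y, hy, rfl⟩ hcx hcy
    rw [← map_mul, ← map_mul] at hcx hcy
    obtain ⟨x', hx', hax, hxx⟩ := h.exists_lift N hN ha hx hcx
    obtain ⟨y', hy', hay, hyy⟩ := h.exists_lift N hN ha hy hcy
    rw [← hxx, ← hyy, ← map_mul, ← map_mul,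
      h.abel a ha (fun e => ha1 (by rw [e, map_one])) x' hx' y' hy' hax hay]

end CfsgLib.AbelianFix
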