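import Cfsg.Agent.AbelianFix.Action
import Cfsg.Agent.Constrained.Fitting
import Cfsg.Agent.S3796

/-!
`O_r` and the Fitting subgroup of subgroups, computed inside the ambient group, and the local theorem:
a solvable invariant subgroup without fixed points of `A` has abelian Fitting factor group.
-/

set_option autoImplicit false

namespace CfsgLib.AbelianFix

open CfsgLib.Coprime
open scoped commutatorElement

universe u

variable {X : Type u} [Group X]

/-- `O_r(H)` as a subgroup of `X`. -/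
def core (r : ℕ) (H : Subgroup X) : Subgroup X := (Cfsg.pCore r ↥H).map H.subtype

/-- `F(H)` as a subgroup of `X`. -/
def fit (H : Subgroup X) : Subgroup X := (Cfsg.fittingSubgroup ↥H).map H.subtype

theorem core_le (r : ℕ) (H : Subgroup X) : core r H ≤ H := Subgroup.map_subtype_le _

theorem fit_le (H : Subgroup X) : fit H ≤ H := Subgroup.map_subtype_le _

theorem isPGroup_map_subtype {r : ℕ} {H : Subgroup X} {U : Subgroup ↥H} (h : IsPGroup r U) :
    IsPGroup r (U.map H.subtype) := h.map _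

/-- The conjugation automorphism of a normalised subgroup. -/
def conjEquiv (H : Subgroup X) (x : X) (hx : x ∈ Subgroup.normalizer (H : Set X)) : ↥H ≃* ↥H :=
  H.normalizerMonoidHom ⟨x, hx⟩

theorem le_normalizer_map_of_char {H : Subgroup X} {U : Subgroup ↥H}
    (hU : ∀ e : ↥H ≃* ↥H, U.map e.toMonoidHom = U) :
    Subgroup.normalizer (H : Set X) ≤ Subgroup.normalizer ((U.map H.subtype : Subgroup X) : Set X) := by
  refine le_normalizer_of_conj_mem fun x hx y hy => ?_
  obtain ⟨u, hu, rfl⟩ := hy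
  refine ⟨conjEquiv H x hx u, ?_, rfl⟩
  rw [SetLike.mem_coe, ← hU (conjEquiv H x hx)]
  exact ⟨u, hu, rfl⟩

variable [Finite X]

theorem isPGroup_core {r : ℕ} (hr : r.Prime) (H : Subgroup X) : IsPGroup r (core r H) :=
  haveI := Fact.mk hr
  isPGroup_map_subtype CfsgLib.Constrained.isPGroup_pCore

theorem le_normalizer_core (r : ℕ) (H : Subgroup X) :
    Subgroup.normalizer (H : Set X) ≤ Subgroup.normalizer ((core r H : Subgroup X) : Set X) :=
  le_normalizer_map_of_char fun e => CfsgLib.Constrained.pCore_map e r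

theorem le_normalizer_fit (H : Subgroup X) :
    Subgroup.normalizer (H : Set X) ≤ Subgroup.normalizer ((fit H : Subgroup X) : Set X) :=
  le_normalizer_map_of_char fun e => CfsgLib.Constrained.fitting_map e

theorem le_core {r : ℕ} {H U : Subgroup X} (hUH : U ≤ H) (hn : H ≤ Subgroup.normalizer (U : Set X))
    (hU : IsPGroup r U) : U ≤ core r H := by
  have h : U.subgroupOf H ≤ Cfsg.pCore r ↥H := CfsgLib.Constrained.le_pCore
    ((Subgroup.normal_subgroupOf_iff_le_normalizer hUH).mpr hn)
    (hU.comap_of_injective H.subtype H.subtype_injective)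
  intro x hx
  exact ⟨⟨x, hUH hx⟩, h hx, rfl⟩

theorem le_fit {H U : Subgroup X} (hUH : U ≤ H) (hn : H ≤ Subgroup.normalizer (U : Set X))
    (hU : Group.IsNilpotent U) : U ≤ fit H := by
  have h : U.subgroupOf H ≤ Cfsg.fittingSubgroup ↥H := CfsgLib.Constrained.le_fitting
    ((Subgroup.normal_subgroupOf_iff_le_normalizer hUH).mpr hn)
    (haveI := hU; Group.nilpotent_of_mulEquiv (Subgroup.subgroupOfEquivOfLe hUH).symm)
  intro x hx
  exact ⟨⟨x, hUH hx⟩, h hx, rfl⟩

theorem core_le_fit {r : ℕ} (hr : r.Prime) (H : Subgroup X) : core r H ≤ fit H :=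
  haveI := Fact.mk hr
  Subgroup.map_mono CfsgLib.Constrained.pCore_le_fitting

theorem isNilpotent_fit (H : Subgroup X) : Group.IsNilpotent (fit H) :=
  Group.nilpotent_of_surjective _ (H.subtype.subgroupMap_surjective (Cfsg.fittingSubgroup ↥H))

theorem fit_le_iff {H K : Subgroup X} : fit H ≤ K ↔ ∀ r : ℕ, r.Prime → core r H ≤ K := by
  refine ⟨fun h r hr => (core_le_fit hr H).trans h, fun h => ?_⟩
  rw [fit, Subgroup.map_le_iff_le_comap, CfsgLib.Constrained.fitting_eq_iSup_pCore]
  exact iSup₂_le fun r hr => Subgroup.map_le_iff_le_comap.mp (h r hr)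

theorem centralizer_fit_le {H : Subgroup X} (hH : Group.IsSolvable H) :
    H ⊓ Subgroup.centralizer (fit H : Set X) ≤ fit H := by
  haveI := hH
  intro x hx
  refine ⟨⟨x, hx.1⟩, CfsgLib.Constrained.centralizer_fitting_le (G := ↥H) ?_, rfl⟩
  rw [Subgroup.mem_centralizer_iff]
  intro y hy
  exact Subtype.ext (Subgroup.mem_centralizer_iff.mp hx.2 y ⟨y, hy, rfl⟩)

theorem exists_core_ne_bot {H : Subgroup X} (hH : Group.IsSolvable H) (hne : H ≠ ⊥) :
    ∃ r : ℕ, r.Prime ∧ core r H ≠ ⊥ := by
  haveI := hH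
  haveI : Nontrivial H := (Subgroup.nontrivial_iff_ne_bot H).mpr hne
  by_contra hc
  push Not at hc
  have h1 : fit H ≤ ⊥ := fit_le_iff.mpr fun r hr => (hc r hr).le
  rw [le_bot_iff, fit, Subgroup.map_eq_bot_iff_of_injective _ H.subtype_injective] at h1
  exact CfsgLib.Constrained.fitting_ne_bot h1

theorem commute_core {r p : ℕ} (hr : r.Prime) (hp : p.Prime) (hne : r ≠ p) (H : Subgroup X) :
    core r H ≤ Subgroup.centralizer (core p H : Set X) := by
  haveI := Fact.mk hr
  haveI := Fact.mk hp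
  rintro _ ⟨x, hx, rfl⟩
  rw [Subgroup.mem_centralizer_iff]
  rintro _ ⟨y, hy, rfl⟩
  refine congrArg Subtype.val (Subgroup.commute_of_normal_of_disjoint (Cfsg.pCore p ↥H) (Cfsg.pCore r ↥H)
    inferInstance inferInstance ?_ y x hy hx).eq
  exact IsPGroup.disjoint_of_ne p r hne.symm _ _ CfsgLib.Constrained.isPGroup_pCore
    CfsgLib.Constrained.isPGroup_pCore

/-- The `r`-subgroups of `F(H)` lie in `O_r(H)`. -/
theorem le_core_of_le_fit {r : ℕ} (hr : r.Prime) {H U : Subgroup X} (hU : U ≤ fit H) (hUr : IsPGroup r U) :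
    U ≤ core r H := by
  haveI := Fact.mk hr
  set F := Cfsg.fittingSubgroup ↥H with hF
  obtain ⟨Q, hQ⟩ := ((hUr.comap_of_injective H.subtype H.subtype_injective).comap_of_injective F.subtype
    F.subtype_injective).exists_le_sylow
  intro x hx
  obtain ⟨y, hy, rfl⟩ := hU hx
  refine ⟨y, CfsgLib.Constrained.map_sylow_le_pCore (N := F) inferInstance inferInstance Q
    ⟨⟨y, hy⟩, hQ ?_, rfl⟩, rfl⟩
  exact hx

/-- An `r`-subgroup centralising the other cores and normal modulo `F(H)` lies in `F(H)`. -/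
theorem le_fit_of_centralize {r : ℕ} (hr : r.Prime) {H T : Subgroup X} (hTH : T ≤ H)
    (hT : IsPGroup r T) (hn : H ≤ Subgroup.normalizer ((T ⊔ fit H : Subgroup X) : Set X))
    (hc : ∀ p : ℕ, p.Prime → p ≠ r → T ≤ Subgroup.centralizer (core p H : Set X)) : T ≤ fit H := by
  haveI := Fact.mk hr
  set U := ⨆ p ∈ {p : ℕ | p.Prime ∧ p ≠ r}, core p H with hU
  have hUf : U ≤ fit H := iSup₂_le fun p hp => core_le_fit hp.1 H
  set T' := T ⊔ core r H with hT'
  have hT'r : IsPGroup r T' :=
    IsPGroup.to_sup_of_normal_right' hT (isPGroup_core hr H)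
      (hTH.trans (Subgroup.le_normalizer.trans (le_normalizer_core r H)))
  have hcomm : T' ≤ Subgroup.centralizer (U : Set X) := by
    rw [Subgroup.le_centralizer_iff]
    refine iSup₂_le fun p hp => Subgroup.le_centralizer_iff.mp ?_
    exact sup_le (hc p hp.1 hp.2) (commute_core hr hp.1 (Ne.symm hp.2) H)
  have heq : T' ⊔ U = T ⊔ fit H := by
    refine le_antisymm (sup_le (sup_le_sup_left (core_le_fit hr H) T) (hUf.trans le_sup_right))
      (sup_le (le_sup_left.trans le_sup_left) (fit_le_iff.mpr fun p hp => ?_))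
    rcases eq_or_ne p r with rfl | hpr
    · exact le_sup_right.trans le_sup_left
    · exact le_sup_of_le_right (le_iSup₂ (f := fun (p : ℕ) (_ : p ∈ {p : ℕ | p.Prime ∧ p ≠ r}) =>
        core p H) p ⟨hp, hpr⟩)
  let φ : T' × U →* X := T'.subtype.noncommCoprod U.subtype fun t u =>
    ((Subgroup.mem_centralizer_iff.mp (hcomm t.2) u u.2).symm : (t : X) * u = u * t)
  have hrange : φ.range = T' ⊔ U := by
    rw [show φ.range = T'.subtype.range ⊔ U.subtype.range from MonoidHom.noncommCoprod_range _ _ _,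
      Subgroup.range_subtype, Subgroup.range_subtype]
  haveI := hT'r.isNilpotent
  haveI : Group.IsNilpotent U := by
    haveI := isNilpotent_fit H
    exact Group.nilpotent_of_mulEquiv (Subgroup.subgroupOfEquivOfLe hUf)
  have hnil : Group.IsNilpotent (T ⊔ fit H : Subgroup X) := by
    rw [← heq, ← hrange]
    exact Group.nilpotent_of_surjective φ.rangeRestrict φ.rangeRestrict_surjective
  exact le_sup_left.trans (le_fit (sup_le hTH (fit_le H)) hn hnil)

/-- The conjugation action of `A` on a subgroup it normalises. -/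
@[reducible] noncomputable def conjAction {A H : Subgroup X} (h : A ≤ Subgroup.normalizer (H : Set X)) :
    MulDistribMulAction ↥A ↥H :=
  MulDistribMulAction.compHom ↥H (H.normalizerMonoidHom.comp (Subgroup.inclusion h))

/-- **Local theorem**: `H' ≤ F(H)`. -/
theorem commutator_le_fit {q : ℕ} {A H : Subgroup X} (h : Hyp q A H) (hsol : Group.IsSolvable H)
    (hCA : H ⊓ Subgroup.centralizer (A : Set X) = ⊥) : ⁅H, H⁆ ≤ fit H := by
  haveI := Fact.mk h.prime
  letI := conjAction h.norm
  set F := Cfsg.fittingSubgroup ↥H with hF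
  obtain ⟨k, m, hkm⟩ := Cfsg.Agent.S3796.exists_nilpotent_term (A := ↥A) (p := q)
    (fun a b => Subtype.ext (h.commute a.2 b.2)) (fun a => Subtype.ext (h.exp a a.2)) h.card _ ↥H rfl hsol
    (fun g hg => Subtype.ext (Subgroup.mem_bot.mp (hCA ▸ Subgroup.mem_inf.mpr ⟨g.2,
      Subgroup.mem_centralizer_iff.mpr fun a ha => mul_inv_eq_iff_eq_mul.mp
        (congrArg Subtype.val (hg ⟨a, ha⟩) : a * (g : X) * a⁻¹ = g)⟩)))
  have hNk : (⊤ : Subgroup ↥H).lowerCentralSeries k ≤ F :=
    CfsgLib.Constrained.le_fitting inferInstance ((Subgroup.isNilpotent_iff_lowerCentralSeries _).2 ⟨m, hkm⟩)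
  set f := QuotientGroup.mk' F with hf
  haveI hnil : Group.IsNilpotent (↥H ⧸ F) := by
    refine Subgroup.nilpotent_iff_lowerCentralSeries.mpr ⟨k, ?_⟩
    rw [← Subgroup.map_top_of_surjective f (QuotientGroup.mk'_surjective F),
      ← Subgroup.map_lowerCentralSeries, Subgroup.map_eq_bot_iff, QuotientGroup.ker_mk']
    exact hNk
  have hnormal : ∀ (r : ℕ) [Fact r.Prime] (R : Sylow r (↥H ⧸ F)), (R : Subgroup (↥H ⧸ F)).Normal := by
    intro r _ R
    have e := (Group.isNilpotent_of_finite_tfae (G := ↥H ⧸ F)).out 0 3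
    exact (e.mp hnil) r inferInstance R
  have hab : ∀ (r : ℕ) [Fact r.Prime] (R : Sylow r (↥H ⧸ F)),
      ∀ x ∈ (R : Subgroup (↥H ⧸ F)), ∀ y ∈ (R : Subgroup (↥H ⧸ F)), x * y = y * x := by
    intro r hr R
    obtain ⟨R₀, hR₀⟩ := exists_invariant_sylow (p := r) h.norm h.coprime (Or.inl h.solvable)
    have hRbar : ((R₀.mapSurjective (QuotientGroup.mk'_surjective F) : Sylow r (↥H ⧸ F)) :
        Subgroup (↥H ⧸ F)) = R := by
      haveI := hnormal r R
      letI := Sylow.unique_of_normal R inferInstance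
      exact congrArg Sylow.toSubgroup (Subsingleton.elim _ R)
    rw [Sylow.coe_mapSurjective] at hRbar
    set RX := (R₀ : Subgroup ↥H).map H.subtype with hRX
    have hRXr : IsPGroup r RX := R₀.isPGroup'.map _
    have hTr : IsPGroup r (⁅RX, RX⁆ : Subgroup X) := hRXr.to_le (Subgroup.commutator_le_self RX)
    have hT : ⁅RX, RX⁆ ≤ fit H := by
      refine le_fit_of_centralize hr.out
        ((Subgroup.commutator_le_self RX).trans (Subgroup.map_subtype_le _)) hTr ?_ ?_
      · have e : ⁅RX, RX⁆ ⊔ fit H = (⁅(R₀ : Subgroup ↥H), (R₀ : Subgroup ↥H)⁆ ⊔ F).map H.subtype := by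
          rw [Subgroup.map_sup, Subgroup.map_commutator]; rfl
        have hn : (⁅(R₀ : Subgroup ↥H), (R₀ : Subgroup ↥H)⁆ ⊔ F).Normal := by
          have e2 : (⁅(R₀ : Subgroup ↥H), (R₀ : Subgroup ↥H)⁆ ⊔ F) =
              (⁅(R : Subgroup (↥H ⧸ F)), (R : Subgroup (↥H ⧸ F))⁆).comap f := by
            rw [← hRbar, ← Subgroup.map_commutator, Subgroup.comap_map_eq, QuotientGroup.ker_mk']
          rw [e2]
          haveI := hnormal r R
          exact (Subgroup.commutator_normal _ _).comap f
        rw [e]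
        refine le_normalizer_of_conj_mem ?_
        rintro x hx _ ⟨u, hu, rfl⟩
        exact ⟨⟨x, hx⟩ * u * ⟨x, hx⟩⁻¹, hn.conj_mem u hu _, rfl⟩
      · intro p hp hpr
        haveI := Fact.mk hp
        have hle : RX ⊔ core p H ≤ H := sup_le (Subgroup.map_subtype_le _) (core_le p H)
        have hAc : A ≤ Subgroup.normalizer ((core p H : Subgroup X) : Set X) :=
          h.norm.trans (le_normalizer_core p H)
        refine commutator_le_centralizer (q := q) (isSolvable_of_isPGroup (isPGroup_core hp H))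
          (h.mono hle (le_normalizer_sup hR₀ hAc)) hR₀ hAc
          ((Subgroup.map_subtype_le _).trans (Subgroup.le_normalizer.trans (le_normalizer_core p H)))
          hRXr.isNilpotent ?_ ?_
        · exact le_bot_iff.mp (hCA ▸ inf_le_inf_right _ (Subgroup.map_subtype_le _))
        · exact IsPGroup.coprime_card_of_ne r p (Ne.symm hpr) _ _ hRXr (isPGroup_core hp H)
    intro x hx y hy
    rw [← hRbar] at hx hy
    obtain ⟨x, hx', rfl⟩ := hx
    obtain ⟨y, hy', rfl⟩ := hy
    rw [← commutatorElement_eq_one_iff_mul_comm, ← map_commutatorElement, QuotientGroup.mk'_apply,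
      QuotientGroup.eq_one_iff]
    obtain ⟨z, hz, hze⟩ := hT (Subgroup.commutator_mem_commutator (g₁ := (x : X)) (g₂ := (y : X))
      ⟨x, hx', rfl⟩ ⟨y, hy', rfl⟩)
    rwa [show ⁅x, y⁆ = z from Subtype.ext (by rw [show ((z : ↥H) : X) = ⁅(x : X), (y : X)⁆ from hze]; rfl)]
  have hcenter : Subgroup.center (↥H ⧸ F) = ⊤ := by
    refine CfsgLib.Constrained.eq_top_of_forall_sylow_le _ fun r hr => ?_
    haveI := Fact.mk hr
    obtain ⟨R⟩ : Nonempty (Sylow r (↥H ⧸ F)) := inferInstance
    refine ⟨R, fun x hx => Subgroup.mem_center_iff.mpr fun g => ?_⟩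
    suffices Subgroup.centralizer ({x} : Set (↥H ⧸ F)) = ⊤ from
      (mem_centralizer_one.mp (this ▸ Subgroup.mem_top g : g ∈ Subgroup.centralizer ({x} : Set _))).symm
    refine CfsgLib.Constrained.eq_top_of_forall_sylow_le _ fun p hp => ?_
    haveI := Fact.mk hp
    obtain ⟨S⟩ : Nonempty (Sylow p (↥H ⧸ F)) := inferInstance
    refine ⟨S, fun y hy => mem_centralizer_one.mpr ?_⟩
    rcases eq_or_ne p r with rfl | hpr
    · haveI := hnormal p R
      letI := Sylow.unique_of_normal R inferInstance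
      exact hab p R x hx y (Subsingleton.elim S R ▸ hy)
    · exact (Subgroup.commute_of_normal_of_disjoint _ _ (hnormal r R) (hnormal p S)
        (IsPGroup.disjoint_of_ne r p (Ne.symm hpr) _ _ R.isPGroup' S.isPGroup') x y hx hy).eq
  refine Subgroup.commutator_le.mpr fun x hx y hy => ?_
  refine ⟨⁅(⟨x, hx⟩ : ↥H), ⟨y, hy⟩⁆, ?_, rfl⟩
  rw [SetLike.mem_coe, ← QuotientGroup.eq_one_iff, ← QuotientGroup.mk'_apply, map_commutatorElement,
    commutatorElement_eq_one_iff_mul_comm]
  exact Subgroup.mem_center_iff.mp (hcenter ▸ Subgroup.mem_top _) _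

end CfsgLib.AbelianFix
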