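import Cfsg.Agent.AbelianFix.Minimal

/-!
An invariant subgroup containing all fixed points of the elements outside one line `⟨a⟩` has `C(a)` as a
supplement; in a minimal counterexample it therefore meets `C(a)` trivially.
-/

set_option autoImplicit false

namespace CfsgLib.AbelianFix

open CfsgLib.Coprime
open scoped commutatorElement

universe u

variable {X : Type u} [Group X] [Finite X] {q : ℕ} {A G M : Subgroup X}

/-- In a solvable invariant `K` everything is a product from `M` and `C(a)`. -/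
theorem exists_mul_fix {a : X} (ha : a ∈ A) (ha1 : a ≠ 1) :
    ∀ (n : ℕ) (K : Subgroup X), Nat.card K = n → Hyp q A K → Group.IsSolvable K →
    (∀ b ∈ A, b ∉ Subgroup.zpowers a → K ⊓ Subgroup.centralizer ({b} : Set X) ≤ M) →
    ∀ x ∈ K, ∃ m ∈ K ⊓ M, ∃ c ∈ K ⊓ Subgroup.centralizer ({a} : Set X), x = m * c := by
  intro n
  induction n using Nat.strong_induction_on with
  | _ n ih =>
  intro K hn hK hsol hC
  rcases eq_or_ne K ⊥ with hK1 | hK1
  · intro x hx
    rw [hK1, Subgroup.mem_bot] at hx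
    exact ⟨1, one_mem _, 1, one_mem _, by rw [hx, one_mul]⟩
  have hlt : ⁅K, K⁆ < K := commutator_self_lt hsol hK1
  have hD := ih _ (hn ▸ Set.Finite.card_lt_card (Set.toFinite _) hlt) ⁅K, K⁆ rfl
    (hK.mono hlt.le (le_normalizer_commutator hK.norm hK.norm)) (isSolvable_of_le hlt.le hsol)
    (fun b hb hba => (inf_le_inf_right _ hlt.le).trans (hC b hb hba))
  set C := K ⊓ Subgroup.centralizer ({a} : Set X) with hCdef
  set L := K ⊓ M with hL
  have swap : ∀ c ∈ C, ∀ m ∈ L, ∃ m' ∈ L, ∃ c' ∈ C, c * m = m' * c' := by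
    intro c hc m hm
    obtain ⟨m'', hm'', c'', hc'', he⟩ :=
      hD ⁅m⁻¹, c⁆ (Subgroup.commutator_mem_commutator (inv_mem hm.1) hc.1)
    refine ⟨m * m'', mul_mem hm ⟨hlt.le hm''.1, hm''.2⟩, c'' * c,
      mul_mem ⟨hlt.le hc''.1, hc''.2⟩ hc, ?_⟩
    calc c * m = m * ⁅m⁻¹, c⁆ * c := by rw [commutatorElement_def]; group
      _ = m * m'' * (c'' * c) := by rw [he]; group
  let S : Subgroup X :=
    { carrier := {x | ∃ m ∈ L, ∃ c ∈ C, x = m * c}
      mul_mem' := by
        rintro _ _ ⟨m, hm, c, hc, rfl⟩ ⟨m', hm', c', hc', rfl⟩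
        obtain ⟨m₂, hm₂, c₂, hc₂, he⟩ := swap c hc m' hm'
        refine ⟨m * m₂, mul_mem hm hm₂, c₂ * c', mul_mem hc₂ hc', ?_⟩
        calc m * c * (m' * c') = m * (c * m') * c' := by group
          _ = m * m₂ * (c₂ * c') := by rw [he]; group
      one_mem' := ⟨1, one_mem _, 1, one_mem _, by rw [one_mul]⟩
      inv_mem' := by
        rintro _ ⟨m, hm, c, hc, rfl⟩
        obtain ⟨m₂, hm₂, c₂, hc₂, he⟩ := swap c⁻¹ (inv_mem hc) m⁻¹ (inv_mem hm)
        exact ⟨m₂, hm₂, c₂, hc₂, by rw [mul_inv_rev, he]⟩ }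
  have hKS : K ≤ S := hK.le_of_fix fun b hb hb1 x hx => by
    by_cases hba : b ∈ Subgroup.zpowers a
    · refine ⟨1, one_mem _, x, ⟨hx.1, ?_⟩, by rw [one_mul]⟩
      have heq : Subgroup.zpowers b = Subgroup.zpowers a := Subgroup.eq_of_le_of_card_ge
        (Subgroup.zpowers_le.mpr hba)
        (by rw [Nat.card_zpowers, Nat.card_zpowers, hK.orderOf_eq hb hb1, hK.orderOf_eq ha ha1])
      rw [← centralizer_zpowers_eq a, ← heq, centralizer_zpowers_eq b]
      exact hx.2
    · exact ⟨x, ⟨hx.1, hC b hb hba hx⟩, 1, one_mem _, by rw [mul_one]⟩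
  exact fun x hx => hKS hx

/-- The key covering argument. -/
theorem Ctx.covering_false (c : Ctx q A G) (hM : IsMax A G M) {a : X} (ha : a ∈ A) (ha1 : a ≠ 1)
    (hC : ∀ b ∈ A, b ∉ Subgroup.zpowers a → G ⊓ Subgroup.centralizer ({b} : Set X) ≤ M)
    (hD : M ⊓ Subgroup.centralizer ({a} : Set X) ≠ ⊥) : False := by
  set Ca := G ⊓ Subgroup.centralizer ({a} : Set X) with hCa
  have hCaG : Ca ≤ G := inf_le_left
  haveI := c.hyp.isMulCommutative_fix ha ha1
  have hdvd : M.relIndex G ∣ M.relIndex Ca := by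
    refine (Nat.dvd_iff_prime_pow_dvd_dvd _ _).mpr fun p k hp hk => ?_
    haveI := Fact.mk hp
    obtain ⟨P, hP, -⟩ := c.exists_sylow le_rfl c.hyp.norm p
    set P' := (P : Subgroup G).map G.subtype with hP'
    have hP'G : P' ≤ G := Subgroup.map_subtype_le _
    set C₁ := P' ⊓ Subgroup.centralizer ({a} : Set X) with hC₁
    have hprod := exists_mul_fix (M := M) ha ha1 _ P' rfl (c.hyp.mono hP'G hP)
      (isSolvable_of_isPGroup (P.isPGroup'.map _))
      (fun b hb hba => (inf_le_inf_right _ hP'G).trans (hC b hb hba))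
    have h1 : p ^ k ∣ M.relIndex P' := by
      have e := Subgroup.relIndex_mul_relIndex (M ⊓ P') M G inf_le_left hM.le
      rw [← Subgroup.relIndex_mul_relIndex (M ⊓ P') P' G inf_le_right hP'G,
        Subgroup.inf_relIndex_right] at e
      have h2 : p ^ k ∣ M.relIndex P' * P'.relIndex G := e ▸ dvd_mul_of_dvd_right hk _
      have hnd : ¬ p ∣ P'.relIndex G := by
        rw [Subgroup.relIndex, Subgroup.subgroupOf, hP',
          Subgroup.comap_map_eq_self_of_injective G.subtype_injective]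
        exact P.not_dvd_index
      exact (Nat.Coprime.pow_left k (hp.coprime_iff_not_dvd.mpr hnd)).dvd_of_dvd_mul_right h2
    have h3 : M.relIndex P' = M.relIndex C₁ := by
      refine (Nat.card_congr (Equiv.ofBijective _ ⟨(Subgroup.quotientSubgroupOfEmbeddingOfLE M
        (inf_le_left : C₁ ≤ P')).injective, ?_⟩)).symm
      intro y
      induction y using QuotientGroup.induction_on with
      | _ z =>
      obtain ⟨m, hm, d, hd, he⟩ := hprod (z⁻¹ : P') (inv_mem z.2)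
      refine ⟨((⟨d, hd⟩⁻¹ : C₁) : C₁ ⧸ M.subgroupOf C₁), ?_⟩
      refine (QuotientGroup.eq (s := M.subgroupOf P')).mpr ?_
      rw [Subgroup.mem_subgroupOf]
      show ((d⁻¹)⁻¹ * (z : X)) ∈ M
      have hz : (z : X) = d⁻¹ * m⁻¹ := by
        rw [← mul_inv_rev, ← he, Subgroup.coe_inv, inv_inv]
      rw [hz, inv_inv, mul_inv_cancel_left]
      exact inv_mem hm.2
    have h4 : M.relIndex C₁ ∣ M.relIndex Ca := by
      have hsub : C₁ ≤ Ca := inf_le_inf_right _ hP'G
      haveI : (M.subgroupOf Ca).Normal := ⟨fun x hx g => by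
        rwa [mul_comm' g x, mul_inv_cancel_right]⟩
      rw [← Subgroup.relIndex_subgroupOf (H := M) hsub]
      exact Subgroup.relIndex_dvd_index_of_normal (M.subgroupOf Ca) (C₁.subgroupOf Ca)
    exact (h1.trans h3.dvd).trans h4
  have hne : M.relIndex Ca ≠ 0 := Nat.card_pos.ne'
  have hcard : Nat.card (G ⧸ M.subgroupOf G) ≤ Nat.card (Ca ⧸ M.subgroupOf Ca) :=
    Nat.le_of_dvd (Nat.pos_of_ne_zero hne) hdvd
  have hsurj := (Subgroup.quotientSubgroupOfEmbeddingOfLE M hCaG).injective.bijective_of_nat_card_le hcard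
  set U : Subgroup X := M ⊓ ⨅ g : G, M.comap (MulAut.conj (g : X)).toMonoidHom with hU
  have hUmem : ∀ {x : X}, x ∈ U ↔ x ∈ M ∧ ∀ g ∈ G, g * x * g⁻¹ ∈ M := by
    intro x
    simp only [hU, Subgroup.mem_inf, Subgroup.mem_iInf, Subgroup.mem_comap, Subtype.forall]
    rfl
  have hUG : U ≤ G := inf_le_left.trans hM.le
  have hUA : A ≤ Subgroup.normalizer (U : Set X) := le_normalizer_of_conj_mem fun α hα x hx => by
    rw [hUmem] at hx ⊢
    refine ⟨conj_mem_of_le_normalizer hM.norm hα hx.1, fun g hg => ?_⟩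
    rw [show g * (α * x * α⁻¹) * g⁻¹ = α * ((α⁻¹ * g * α) * x * (α⁻¹ * g * α)⁻¹) * α⁻¹ by group]
    exact conj_mem_of_le_normalizer hM.norm hα (hx.2 _ (conj_mem_of_le_normalizer' c.hyp.norm hα hg))
  have hUn : G ≤ Subgroup.normalizer (U : Set X) := le_normalizer_of_conj_mem fun h hh x hx => by
    rw [hUmem] at hx ⊢
    refine ⟨hx.2 h hh, fun g hg => ?_⟩
    rw [show g * (h * x * h⁻¹) * g⁻¹ = (g * h) * x * (g * h)⁻¹ by group]
    exact hx.2 _ (mul_mem hg hh)
  obtain ⟨d, hd, hd1⟩ := (Subgroup.bot_or_exists_ne_one _).resolve_left hD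
  rcases c.normal U hUG hUA hUn with h | h
  · refine hd1 (Subgroup.mem_bot.mp (h ▸ hUmem.mpr ⟨hd.1, fun g hg => ?_⟩))
    obtain ⟨y, hy⟩ := hsurj.2 ((⟨g, hg⟩⁻¹ : G) : G ⧸ M.subgroupOf G)
    induction y using QuotientGroup.induction_on with
    | _ z =>
    have hm : (z : X)⁻¹ * g⁻¹ ∈ M := (QuotientGroup.eq (s := M.subgroupOf G)).mp hy
    have hzd : (z : X) * d = d * z := c.hyp.abel a ha ha1 _ z.2.1 d (hM.le hd.1)
      (mem_centralizer_one.mp z.2.2) (mem_centralizer_one.mp hd.2)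
    rw [show g * d * g⁻¹ = ((z : X)⁻¹ * g⁻¹)⁻¹ * ((z : X)⁻¹ * (d * z)) * ((z : X)⁻¹ * g⁻¹) by group,
      ← hzd, inv_mul_cancel_left]
    exact mul_mem (mul_mem (inv_mem hm) hd.1) hm
  · exact hM.ne (le_antisymm hM.le (h ▸ inf_le_left))

end CfsgLib.AbelianFix
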