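import Cfsg.Agent.AbelianFix.Minimal
import Cfsg.Agent.GlaubermanZJ.AxB

/-!
A maximal invariant subgroup `H ≠ M` containing `F(M)`: it has a core `O_t(H)` meeting `M` trivially, and it
is determined by `t`.
-/

set_option autoImplicit false

namespace CfsgLib.AbelianFix

open CfsgLib.Coprime
open scoped commutatorElement

universe u

variable {X : Type u} [Group X] [Finite X]

omit [Finite X] in
theorem le_centralizer_of_disjoint {T U : Subgroup X} (h1 : T ≤ Subgroup.normalizer (U : Set X))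
    (h2 : U ≤ Subgroup.normalizer (T : Set X)) (h : T ⊓ U = ⊥) :
    T ≤ Subgroup.centralizer (U : Set X) := fun t ht => by
  refine Subgroup.mem_centralizer_iff.mpr fun u hu => ?_
  have hm : ⁅t, u⁆ = 1 := Subgroup.mem_bot.mp (h ▸ Subgroup.mem_inf.mpr
    ⟨by rw [commutatorElement_def, mul_assoc, mul_assoc, ← mul_assoc u]
        exact mul_mem ht (conj_mem_of_le_normalizer h2 hu (inv_mem ht)),
     by rw [commutatorElement_def]; exact mul_mem (conj_mem_of_le_normalizer h1 ht hu) (inv_mem hu)⟩)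
  exact (commutatorElement_eq_one_iff_mul_comm.mp hm).symm

theorem eq_of_normalizer_le {p : ℕ} [Fact p.Prime] {T D : Subgroup X} (hT : IsPGroup p T) (hD : D ≤ T)
    (h : T ⊓ Subgroup.normalizer (D : Set X) ≤ D) : D = T := by
  by_contra hne
  haveI := hT.isNilpotent
  have hlt : D.subgroupOf T < ⊤ := by
    rw [lt_top_iff_ne_top, Ne, Subgroup.subgroupOf_eq_top]
    exact fun h' => hne (le_antisymm hD h')
  obtain ⟨x, hx, hxD⟩ := SetLike.exists_of_lt (Group.normalizerCondition_of_isNilpotent _ hlt)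
  refine hxD (h (Subgroup.mem_inf.mpr ⟨x.2, Subgroup.mem_normalizer_iff.mpr fun u => ⟨fun hu => ?_,
    fun hu => ?_⟩⟩))
  · exact (Subgroup.mem_normalizer_iff.mp hx ⟨u, hD hu⟩).mp hu
  · have huT : u ∈ T := by simpa [mul_assoc] using mul_mem (mul_mem (inv_mem x.2) (hD hu)) x.2
    exact (Subgroup.mem_normalizer_iff.mp hx ⟨u, huT⟩).mpr hu

theorem inf_eq_bot_of_pGroups {p t : ℕ} (hp : p.Prime) (ht : t.Prime) (hne : p ≠ t) {P T : Subgroup X}
    (hP : IsPGroup p P) (hT : IsPGroup t T) : P ⊓ T = ⊥ :=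
  haveI := Fact.mk hp
  haveI := Fact.mk ht
  disjoint_iff.mp (IsPGroup.disjoint_of_ne p t hne _ _ hP hT)

variable {q : ℕ} {A G M H : Subgroup X}

theorem Ctx.core_le_core (c : Ctx q A G) (hM : IsMax A G M) (hFH : fit M ≤ H) (hHM : fit H ≤ M)
    {r : ℕ} (hr : r.Prime) : core r H ≤ core r M := by
  refine c.le_core_of_centralize hM hr ((core_le_fit hr H).trans hHM) (isPGroup_core hr H)
    fun p hp hpr => ?_
  refine le_centralizer_of_disjoint (((core_le_fit hr H).trans hHM).trans (Ctx.norm_coreM' p M))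
    (((core_le_fit hp M).trans hFH).trans (Ctx.norm_coreM' r H)) ?_
  exact inf_eq_bot_of_pGroups hr hp hpr.symm (isPGroup_core hr H) (isPGroup_core hp M)

/-- A `t`-subgroup normalised by `F(M)` meets `M` trivially when `O_t(M) = 1`. -/
theorem Ctx.inf_eq_bot_of_tGroup (c : Ctx q A G) (hM : IsMax A G M) {t : ℕ} (ht : t.Prime)
    (hD : core t M = ⊥) {V : Subgroup X} (hV : IsPGroup t V)
    (hF : fit M ≤ Subgroup.normalizer (V : Set X)) : V ⊓ M = ⊥ := by
  have h0 : (V ⊓ M) ⊓ fit M = ⊥ := by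
    have h := le_core_of_le_fit ht (H := M) (U := (V ⊓ M) ⊓ fit M) inf_le_right
      (hV.to_le (inf_le_left.trans inf_le_left))
    rwa [hD, le_bot_iff] at h
  have hc : V ⊓ M ≤ Subgroup.centralizer (fit M : Set X) :=
    le_centralizer_of_disjoint
      (inf_le_right.trans (Subgroup.le_normalizer.trans (le_normalizer_fit M)))
      (le_normalizer_inf' hF ((fit_le M).trans Subgroup.le_normalizer)) h0
  have hle : V ⊓ M ≤ fit M := (le_inf inf_le_right hc).trans (centralizer_fit_le (c.solM hM))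
  exact le_bot_iff.mp ((le_inf le_rfl hle).trans h0.le)

/-- **The exceptional prime.** -/
theorem Ctx.exceptional (c : Ctx q A G) (hM : IsMax A G M) (hH : IsMax A G H) (hFH : fit M ≤ H)
    (hne : H ≠ M) :
    ∃ t : ℕ, t.Prime ∧ core t H ≠ ⊥ ∧ core t M = ⊥ ∧ core t H ⊓ M = ⊥ ∧
      ∀ r : ℕ, wPart r M ≠ ⊥ → core t H ⊓ Subgroup.centralizer (wPart r M : Set X) = ⊥ := by
  obtain ⟨t, ht, hX⟩ : ∃ t : ℕ, t.Prime ∧ ¬ core t H ≤ M := by
    by_contra hc
    push Not at hc
    have hHM : fit H ≤ M := fit_le_iff.mpr hc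
    obtain ⟨r, hr, hr1⟩ := c.exists_coreM_ne_bot hH
    have heq : core r H = core r M :=
      le_antisymm (c.core_le_core hM hFH hHM hr) (c.core_le_core hH hHM hFH hr)
    refine hne ?_
    rw [← c.normalizer_eq hH (core_le r H) (Ctx.norm_coreM hH r) (Ctx.norm_coreM' r H) hr1, heq,
      c.normalizer_eq hM (core_le r M) (Ctx.norm_coreM hM r) (Ctx.norm_coreM' r M) (heq ▸ hr1)]
  haveI := Fact.mk ht
  set Xt := core t H with hXt
  set D := core t M with hDdef
  have hXt_t : IsPGroup t Xt := isPGroup_core ht H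
  have hXn : H ≤ Subgroup.normalizer (Xt : Set X) := Ctx.norm_coreM' t H
  have hDH : D ≤ H := (core_le_fit ht M).trans hFH
  have hD : D = ⊥ := by
    by_contra hD1
    set T := D ⊔ Xt with hT
    have hTt : IsPGroup t T :=
      IsPGroup.to_sup_of_normal_right' (isPGroup_core ht M) hXt_t (hDH.trans hXn)
    by_cases hex : ∃ p : ℕ, p.Prime ∧ p ≠ t ∧ core p M ≠ ⊥
    · obtain ⟨p, hp, hpt, hY1⟩ := hex
      haveI := Fact.mk hp
      set Y := core p M with hY
      have hYH : Y ≤ H := (core_le_fit hp M).trans hFH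
      have hYT : Y ≤ Subgroup.normalizer (T : Set X) :=
        le_normalizer_sup ((core_le p M).trans (Ctx.norm_coreM' t M)) (hYH.trans hXn)
      have hYD : Y ≤ Subgroup.centralizer (D : Set X) := commute_core hp ht hpt M
      set K := T ⊓ Subgroup.centralizer (D : Set X) with hK
      have hTG : T ≤ G := (sup_le hDH (core_le t H)).trans hH.le
      have hKM : K ≤ M := (inf_le_inf_right _ hTG).trans (c.centralizer_core_le hM hD1)
      have hKY : K ≤ Subgroup.centralizer (Y : Set X) :=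
        le_centralizer_of_disjoint (hKM.trans (Ctx.norm_coreM' p M))
          (le_normalizer_inf' hYT (le_normalizer_centralizer ((core_le p M).trans (Ctx.norm_coreM' t M))))
          (le_bot_iff.mp ((inf_le_inf_right Y (inf_le_left : K ≤ T)).trans
            (inf_eq_bot_of_pGroups ht hp hpt.symm hTt (isPGroup_core hp M)).le))
      have hYc : (Nat.card Y).Coprime t := by
        obtain ⟨k, hk⟩ := IsPGroup.iff_card.mp (isPGroup_core hp M)
        rw [hY, hk]
        exact Nat.Coprime.pow_left k ((Nat.coprime_primes hp ht).mpr hpt)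
      have hYX : Y ≤ Subgroup.centralizer (T : Set X) :=
        CfsgLib.GlaubermanZJ.thompson_axb hTt (isPGroup_core ht M)
          ((le_sup_left : D ≤ T).trans Subgroup.le_normalizer) hYT hYD hYc hKY
      exact hX ((le_inf ((core_le t H).trans hH.le)
        (le_sup_right.trans (Subgroup.le_centralizer_iff.mp hYX))).trans (c.centralizer_core_le hM hY1))
    · push Not at hex
      have hfD : fit M ≤ D := fit_le_iff.mpr fun p hp => by
        rcases eq_or_ne p t with rfl | hpt
        · exact le_rfl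
        · rw [hex p hp hpt]; exact bot_le
      obtain ⟨R₀, hR₀, hR₀max⟩ := c.exists_sylow hM.le hM.norm t
      set R := (R₀ : Subgroup M).map M.subtype with hR
      have hDR : D ≤ R := hR₀max _ (core_le t M) (Ctx.norm_coreM hM t) (isPGroup_core ht M)
      have hRD : R ≤ D := le_core (Subgroup.map_subtype_le _)
        (c.le_normalizer_of_fit_le hM (hfD.trans hDR) (Subgroup.map_subtype_le _)) (R₀.isPGroup'.map _)
      have hDT : D = T := by
        refine eq_of_normalizer_le hTt le_sup_left ((hR₀max _ ?_ ?_ (hTt.to_le inf_le_left)).trans hRD)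
        · exact (inf_le_inf_right _ ((sup_le hDH (core_le t H)).trans hH.le)).trans
            (c.normalizer_eq hM (core_le t M) (Ctx.norm_coreM hM t) (Ctx.norm_coreM' t M) hD1).le
        · exact le_normalizer_inf'
            (le_normalizer_sup (Ctx.norm_coreM hM t) (Ctx.norm_coreM hH t))
            ((Ctx.norm_coreM hM t).trans Subgroup.le_normalizer)
      exact hX ((le_sup_right : Xt ≤ T).trans (hDT.ge.trans (core_le t M)))
  have hXM : Xt ⊓ M = ⊥ := c.inf_eq_bot_of_tGroup hM ht hD hXt_t (hFH.trans hXn)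
  refine ⟨t, ht, fun e => hX (e.trans_le bot_le), hD, hXM, fun r hW => ?_⟩
  refine le_bot_iff.mp (le_trans (le_inf inf_le_left ?_) hXM.le)
  exact (inf_le_inf_right _ ((core_le t H).trans hH.le)).trans (c.centralizer_wPart_le hM hW)

/-- A `t`-subgroup of `H` moved without fixed points by `W` lies in `O_t(H)`. -/
theorem Ctx.le_core_of_moved (c : Ctx q A G) (hM : IsMax A G M) {r t : ℕ} (hr : r.Prime) (ht : t.Prime)
    (hrt : r ≠ t) (hH : IsMax A G H) (hFH : fit M ≤ H) {V : Subgroup X} (hVH : V ≤ H) (hV : IsPGroup t V)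
    (hWV : wPart r M ≤ Subgroup.normalizer (V : Set X))
    (hfix : V ⊓ Subgroup.centralizer (wPart r M : Set X) = ⊥) : V ≤ core t H := by
  haveI := Fact.mk hr
  haveI := Fact.mk ht
  have hW : IsPGroup r (wPart r M) := (isPGroup_core hr M).to_le (wPart_le_core r M)
  have h := eq_commutator_sup_centralizer hWV (IsPGroup.coprime_card_of_ne r t hrt _ _ hW hV)
    (Or.inr (isSolvable_of_isPGroup hV))
  rw [hfix, sup_bot_eq] at h
  have hWH : wPart r M ≤ H := ((wPart_le_core r M).trans (core_le_fit hr M)).trans hFH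
  exact le_core_of_le_fit ht (h.ge.trans ((Subgroup.commutator_mono hVH hWH).trans
    (c.commutator_le_fitM hH))) hV

/-- At most one maximal subgroup contains `F(M)` and has `O_t ≠ 1`. -/
theorem Ctx.eq_of_exceptional (c : Ctx q A G) (hM : IsMax A G M) {r t : ℕ} (hr : r.Prime) (ht : t.Prime)
    (hW : wPart r M ≠ ⊥) (hD : core t M = ⊥) {H₁ H₂ : Subgroup X} (h₁ : IsMax A G H₁) (h₂ : IsMax A G H₂)
    (hF₁ : fit M ≤ H₁) (hF₂ : fit M ≤ H₂) (hX₁ : core t H₁ ≠ ⊥) (hX₂ : core t H₂ ≠ ⊥) : H₁ = H₂ := by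
  haveI := Fact.mk ht
  have hrt : r ≠ t := by
    rintro rfl
    exact hW (le_bot_iff.mp (hD ▸ wPart_le_core r M))
  obtain ⟨T₀, hT₀, hTmax⟩ := c.exists_sylow le_rfl c.hyp.norm t
  set T := (T₀ : Subgroup G).map G.subtype with hT
  have hTG : T ≤ G := Subgroup.map_subtype_le _
  set R : Subgroup X := sSup {V | V ≤ T ∧ fit M ≤ Subgroup.normalizer (V : Set X)} with hR
  have hRT : R ≤ T := sSup_le fun V hV => hV.1
  have hRF : fit M ≤ Subgroup.normalizer (R : Set X) := le_normalizer_of_conj_mem fun f hf x hx => by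
    have hle : R ≤ R.comap (MulAut.conj f).toMonoidHom := sSup_le fun V hV v hv =>
      le_sSup (s := {V | V ≤ T ∧ fit M ≤ Subgroup.normalizer (V : Set X)}) hV
        (conj_mem_of_le_normalizer hV.2 hf hv)
    exact hle hx
  have hRt : IsPGroup t R := (T₀.isPGroup'.map _).to_le hRT
  have hRM : R ⊓ M = ⊥ := c.inf_eq_bot_of_tGroup hM ht hD hRt hRF
  have hRW : R ⊓ Subgroup.centralizer (wPart r M : Set X) = ⊥ := le_bot_iff.mp (le_trans
    (le_inf inf_le_left ((inf_le_inf_right _ (hRT.trans hTG)).trans (c.centralizer_wPart_le hM hW))) hRM.le)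
  have key : ∀ K : Subgroup X, IsMax A G K → fit M ≤ K → core t K ≠ ⊥ → core t K = R := by
    intro K hK hFK hKne
    have hle : core t K ≤ R := le_sSup
      ⟨hTmax _ ((core_le t K).trans hK.le) (Ctx.norm_coreM hK t) (isPGroup_core ht K),
        hFK.trans (Ctx.norm_coreM' t K)⟩
    refine eq_of_normalizer_le hRt hle ?_
    have h1 : R ⊓ Subgroup.normalizer (core t K : Set X) ≤ R ⊓ K := le_inf inf_le_left
      ((inf_le_inf_right _ (hRT.trans hTG)).trans
        (c.normalizer_eq hK (core_le t K) (Ctx.norm_coreM hK t) (Ctx.norm_coreM' t K) hKne).le)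
    refine h1.trans (c.le_core_of_moved hM hr ht hrt hK hFK inf_le_right (hRt.to_le inf_le_left)
      ((((wPart_le_core r M).trans (core_le_fit hr M)).trans
        (le_inf hRF (hFK.trans Subgroup.le_normalizer))).trans Subgroup.inf_normalizer_le_normalizer_inf) ?_)
    exact le_bot_iff.mp ((inf_le_inf_right _ inf_le_left).trans hRW.le)
  rw [← c.normalizer_eq h₁ (core_le t H₁) (Ctx.norm_coreM h₁ t) (Ctx.norm_coreM' t H₁) hX₁,
    key H₁ h₁ hF₁ hX₁, ← key H₂ h₂ hF₂ hX₂,
    c.normalizer_eq h₂ (core_le t H₂) (Ctx.norm_coreM h₂ t) (Ctx.norm_coreM' t H₂) hX₂]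

end CfsgLib.AbelianFix
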