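import Cfsg.Agent.AbelianFix.Cores
import Cfsg.Agent.PGroup.Normal

/-!
A minimal counterexample: invariant Sylow subgroups and maximal invariant subgroups.
-/

set_option autoImplicit false

namespace CfsgLib.AbelianFix

open CfsgLib.Coprime
open scoped commutatorElement

universe u

variable {X : Type u} [Group X] [Finite X]

/-- A minimal counterexample. -/
structure Ctx (q : ℕ) (A G : Subgroup X) : Prop where
  hyp : Hyp q A G
  three : 3 ≤ q
  nsol : ¬ Group.IsSolvable G
  sub : ∀ H : Subgroup X, H ≤ G → A ≤ Subgroup.normalizer (H : Set X) → H ≠ G → Group.IsSolvable H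
  normal : ∀ N : Subgroup X, N ≤ G → A ≤ Subgroup.normalizer (N : Set X) →
    G ≤ Subgroup.normalizer (N : Set X) → N = ⊥ ∨ N = G

variable {q : ℕ} {A G : Subgroup X}

theorem Ctx.ne_top_of_solvable (c : Ctx q A G) {H : Subgroup X} (hH : Group.IsSolvable H) : H ≠ G :=
  fun e => c.nsol (e ▸ hH)

theorem Ctx.ne_bot (c : Ctx q A G) : G ≠ ⊥ := fun e =>
  c.ne_top_of_solvable (H := (⊥ : Subgroup X)) inferInstance e.symm

/-- No fixed points of `A`. -/
theorem Ctx.centA (c : Ctx q A G) : G ⊓ Subgroup.centralizer (A : Set X) = ⊥ := by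
  set Z := G ⊓ Subgroup.centralizer (G : Set X) with hZ
  have hle : G ⊓ Subgroup.centralizer (A : Set X) ≤ Z := by
    refine le_inf inf_le_left fun x hx => ?_
    rw [Subgroup.mem_centralizer_iff]
    intro g hg
    have hG : G ≤ Subgroup.centralizer ({x} : Set X) := c.hyp.le_of_fix fun a ha ha1 y hy =>
      mem_centralizer_one.mpr (c.hyp.abel a ha ha1 x hx.1 y hy.1
        (Subgroup.mem_centralizer_iff.mp hx.2 a ha) (mem_centralizer_one.mp hy.2))
    exact (mem_centralizer_one.mp (hG hg)).symm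
  have hGZ : G ≤ Subgroup.normalizer (Z : Set X) :=
    le_normalizer_inf' Subgroup.le_normalizer (le_normalizer_centralizer Subgroup.le_normalizer)
  rcases c.normal Z inf_le_left (le_normalizer_inf' c.hyp.norm (le_normalizer_centralizer c.hyp.norm)) hGZ
    with h | h
  · exact le_bot_iff.mp (hle.trans h.le)
  · refine absurd (isSolvable_of_isMulCommutative (P := G) ?_) c.nsol
    exact ⟨⟨fun x y => Subtype.ext
      (Subgroup.mem_centralizer_iff.mp (h.ge y.2).2 x x.2)⟩⟩

theorem Ctx.centA_le (c : Ctx q A G) {H : Subgroup X} (hH : H ≤ G) :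
    H ⊓ Subgroup.centralizer (A : Set X) = ⊥ :=
  le_bot_iff.mp ((inf_le_inf_right _ hH).trans c.centA.le)

/-- An element of `G` centralised by two independent elements of `A` is trivial. -/
theorem Ctx.eq_one_of_two (c : Ctx q A G) {a b : X} (ha : a ∈ A) (ha1 : a ≠ 1) (hb : b ∈ A)
    (hba : b ∉ Subgroup.zpowers a) {x : X} (hx : x ∈ G) (hxa : a * x = x * a) (hxb : b * x = x * b) :
    x = 1 :=
  Subgroup.mem_bot.mp (c.centA ▸ Subgroup.mem_inf.mpr
    ⟨hx, c.hyp.mem_centralizer_of_two ha ha1 hb hba hxa hxb⟩)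

/-- The invariant Sylow subgroup of an invariant subgroup: it contains every invariant `p`-subgroup. -/
theorem Ctx.exists_sylow (c : Ctx q A G) {H : Subgroup X} (hH : H ≤ G)
    (hAH : A ≤ Subgroup.normalizer (H : Set X)) (p : ℕ) [Fact p.Prime] :
    ∃ P : Sylow p H, A ≤ Subgroup.normalizer ((P : Subgroup H).map H.subtype : Set X) ∧
      ∀ U : Subgroup X, U ≤ H → A ≤ Subgroup.normalizer (U : Set X) → IsPGroup p U →
        U ≤ (P : Subgroup H).map H.subtype := by
  have hcop := coprime_of_le le_rfl hH c.hyp.coprime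
  obtain ⟨P, hP⟩ := exists_invariant_sylow (p := p) hAH hcop (Or.inl c.hyp.solvable)
  refine ⟨P, hP, fun U hU hAU hUp => ?_⟩
  obtain ⟨Q, hQ, hUQ⟩ := le_invariant_sylow hAH hcop (Or.inl c.hyp.solvable) U hU hUp hAU
  obtain ⟨x, hx, hxe⟩ := invariant_sylow_conj hAH hcop (Or.inl c.hyp.solvable) P Q hP hQ
  rw [c.centA_le hH, Subgroup.mem_bot] at hx
  rw [hx, map_conj_one] at hxe
  exact hxe ▸ hUQ

/-- A maximal `A`-invariant proper subgroup. -/
structure IsMax (A G M : Subgroup X) : Prop where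
  le : M ≤ G
  norm : A ≤ Subgroup.normalizer (M : Set X)
  ne : M ≠ G
  max : ∀ H : Subgroup X, M ≤ H → H ≤ G → A ≤ Subgroup.normalizer (H : Set X) → H ≠ G → H = M

theorem Ctx.exists_max (c : Ctx q A G) {H : Subgroup X} (hH : H ≤ G)
    (hAH : A ≤ Subgroup.normalizer (H : Set X)) (hne : H ≠ G) :
    ∃ M : Subgroup X, H ≤ M ∧ IsMax A G M := by
  obtain ⟨M, hle, hM⟩ := Finite.exists_le_maximal
    (p := fun K : Subgroup X => K ≤ G ∧ A ≤ Subgroup.normalizer (K : Set X) ∧ K ≠ G) ⟨hH, hAH, hne⟩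
  exact ⟨M, hle, hM.1.1, hM.1.2.1, hM.1.2.2, fun K hK hKG hAK hne =>
    le_antisymm (hM.2 ⟨hKG, hAK, hne⟩ hK) hK⟩

variable {M : Subgroup X}

theorem Ctx.hypM (c : Ctx q A G) (hM : IsMax A G M) : Hyp q A M := c.hyp.mono hM.le hM.norm

theorem Ctx.solM (c : Ctx q A G) (hM : IsMax A G M) : Group.IsSolvable M := c.sub M hM.le hM.norm hM.ne

theorem Ctx.max_ne_bot (c : Ctx q A G) (hM : IsMax A G M) : M ≠ ⊥ := by
  intro e
  have hG1 : 1 < Nat.card G := by
    haveI := (Subgroup.nontrivial_iff_ne_bot G).mpr c.ne_bot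
    exact Finite.one_lt_card
  obtain ⟨p, hp, hdvd⟩ := Nat.exists_prime_and_dvd hG1.ne'
  haveI := Fact.mk hp
  obtain ⟨P, hP, -⟩ := c.exists_sylow le_rfl c.hyp.norm p
  have h := hM.max _ (e ▸ bot_le) (Subgroup.map_subtype_le _) hP
    (c.ne_top_of_solvable (isSolvable_of_isPGroup (P.isPGroup'.map _)))
  rw [e, Subgroup.map_eq_bot_iff_of_injective _ G.subtype_injective] at h
  exact P.ne_bot_of_dvd_card hdvd h

theorem Ctx.exists_coreM_ne_bot (c : Ctx q A G) (hM : IsMax A G M) :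
    ∃ r : ℕ, r.Prime ∧ core r M ≠ ⊥ :=
  exists_core_ne_bot (c.solM hM) (c.max_ne_bot hM)

/-- `M` is the normaliser of each of its nontrivial normal invariant subgroups. -/
theorem Ctx.normalizer_eq (c : Ctx q A G) (hM : IsMax A G M) {U : Subgroup X} (hUM : U ≤ M)
    (hAU : A ≤ Subgroup.normalizer (U : Set X)) (hn : M ≤ Subgroup.normalizer (U : Set X)) (hU : U ≠ ⊥) :
    G ⊓ Subgroup.normalizer (U : Set X) = M := by
  refine hM.max _ (le_inf hM.le hn) inf_le_left
    (le_normalizer_inf' c.hyp.norm (hAU.trans Subgroup.le_normalizer)) fun e => ?_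
  rcases c.normal U (hUM.trans hM.le) hAU (inf_eq_left.mp e) with h | h
  · exact hU h
  · exact hM.ne (le_antisymm hM.le (h ▸ hUM))

theorem Ctx.centralizer_le (c : Ctx q A G) (hM : IsMax A G M) {U : Subgroup X} (hUM : U ≤ M)
    (hAU : A ≤ Subgroup.normalizer (U : Set X)) (hn : M ≤ Subgroup.normalizer (U : Set X)) (hU : U ≠ ⊥) :
    G ⊓ Subgroup.centralizer (U : Set X) ≤ M := by
  refine le_trans (inf_le_inf_left _ fun x hx => Subgroup.mem_normalizer_iff.mpr fun u => ?_)
    (c.normalizer_eq hM hUM hAU hn hU).le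
  constructor
  · intro hu
    rwa [← Subgroup.mem_centralizer_iff.mp hx u hu, mul_inv_cancel_right]
  · intro hu
    have h1 : (x * u * x⁻¹) * x = x * (x * u * x⁻¹) := Subgroup.mem_centralizer_iff.mp hx _ hu
    have h2 : x * u * x⁻¹ = u :=
      calc x * u * x⁻¹ = x⁻¹ * (x * (x * u * x⁻¹)) := by group
        _ = x⁻¹ * ((x * u * x⁻¹) * x) := by rw [h1]
        _ = u := by group
    rwa [h2] at hu

theorem Ctx.commutator_le_fitM (c : Ctx q A G) (hM : IsMax A G M) : ⁅M, M⁆ ≤ fit M :=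
  commutator_le_fit (c.hypM hM) (c.solM hM) (c.centA_le hM.le)

theorem Ctx.le_normalizer_of_fit_le (c : Ctx q A G) (hM : IsMax A G M) {N : Subgroup X}
    (hf : fit M ≤ N) (hNM : N ≤ M) : M ≤ Subgroup.normalizer (N : Set X) :=
  le_normalizer_of_conj_mem fun m hm n hn => by
    rw [show m * n * m⁻¹ = ⁅m, n⁆ * n by rw [commutatorElement_def]; group]
    exact mul_mem (hf (c.commutator_le_fitM hM (Subgroup.commutator_mem_commutator hm (hNM hn)))) hn

theorem Ctx.le_core_of_centralize (c : Ctx q A G) (hM : IsMax A G M) {r : ℕ} (hr : r.Prime)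
    {T : Subgroup X} (hTM : T ≤ M) (hT : IsPGroup r T)
    (hc : ∀ p : ℕ, p.Prime → p ≠ r → T ≤ Subgroup.centralizer (core p M : Set X)) : T ≤ core r M :=
  le_core_of_le_fit hr (le_fit_of_centralize hr hTM hT
    (c.le_normalizer_of_fit_le hM le_sup_right (sup_le hTM (fit_le M))) hc) hT

theorem Ctx.norm_coreM (hM : IsMax A G M) (r : ℕ) :
    A ≤ Subgroup.normalizer ((core r M : Subgroup X) : Set X) :=
  hM.norm.trans (le_normalizer_core r M)

theorem Ctx.norm_coreM' (r : ℕ) (M : Subgroup X) :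
    M ≤ Subgroup.normalizer ((core r M : Subgroup X) : Set X) :=
  Subgroup.le_normalizer.trans (le_normalizer_core r M)

theorem Ctx.centralizer_core_le (c : Ctx q A G) (hM : IsMax A G M) {r : ℕ} (h : core r M ≠ ⊥) :
    G ⊓ Subgroup.centralizer (core r M : Set X) ≤ M :=
  c.centralizer_le hM (core_le r M) (Ctx.norm_coreM hM r) (Ctx.norm_coreM' r M) h

/-! ### The central part `W` of `O_r(M)` -/

/-- The elements of `r`-power order of `M`. -/
def rElems (r : ℕ) (M : Subgroup X) : Set X := {x | x ∈ M ∧ ∃ k : ℕ, x ^ r ^ k = 1}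

/-- `O_r(M) ∩ C(F(M)) ∩ C(r-elements of M)`. -/
def wPart (r : ℕ) (M : Subgroup X) : Subgroup X :=
  core r M ⊓ Subgroup.centralizer (fit M : Set X) ⊓ Subgroup.centralizer (rElems r M)

theorem le_normalizer_centralizer_rElems {K : Subgroup X} (r : ℕ)
    (hK : K ≤ Subgroup.normalizer (M : Set X)) :
    K ≤ Subgroup.normalizer ((Subgroup.centralizer (rElems r M) : Subgroup X) : Set X) := by
  refine le_normalizer_of_conj_mem fun k hk z hz => Subgroup.mem_centralizer_iff.mpr fun x hx => ?_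
  have hy : k⁻¹ * x * k ∈ rElems r M := by
    obtain ⟨hxM, n, hn⟩ := hx
    refine ⟨conj_mem_of_le_normalizer' hK hk hxM, n, ?_⟩
    rw [show k⁻¹ * x * k = k⁻¹ * x * k⁻¹⁻¹ by rw [inv_inv], conj_pow, hn]
    group
  have h1 : (k⁻¹ * x * k) * z = z * (k⁻¹ * x * k) := Subgroup.mem_centralizer_iff.mp hz _ hy
  calc x * (k * z * k⁻¹) = k * ((k⁻¹ * x * k) * z) * k⁻¹ := by group
    _ = k * z * k⁻¹ * x := by rw [h1]; group

theorem le_normalizer_wPart {K : Subgroup X} (r : ℕ) (hK : K ≤ Subgroup.normalizer (M : Set X)) :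
    K ≤ Subgroup.normalizer ((wPart r M : Subgroup X) : Set X) :=
  le_normalizer_inf' (le_normalizer_inf' (hK.trans (le_normalizer_core r M))
    (le_normalizer_centralizer (hK.trans (le_normalizer_fit M))))
    (le_normalizer_centralizer_rElems r hK)

theorem wPart_le_core (r : ℕ) (M : Subgroup X) : wPart r M ≤ core r M := inf_le_left.trans inf_le_left

theorem wPart_le (r : ℕ) (M : Subgroup X) : wPart r M ≤ M := (wPart_le_core r M).trans (core_le r M)

theorem wPart_le_centralizer_fit (r : ℕ) (M : Subgroup X) :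
    wPart r M ≤ Subgroup.centralizer (fit M : Set X) := inf_le_left.trans inf_le_right

theorem isMulCommutative_wPart {r : ℕ} (hr : r.Prime) (M : Subgroup X) : IsMulCommutative (wPart r M) :=
  ⟨⟨fun x y => Subtype.ext (Subgroup.mem_centralizer_iff.mp (wPart_le_centralizer_fit r M y.2) x
    (core_le_fit hr M (wPart_le_core r M x.2)))⟩⟩

theorem Ctx.centralizer_wPart_le (c : Ctx q A G) (hM : IsMax A G M) {r : ℕ} (h : wPart r M ≠ ⊥) :
    G ⊓ Subgroup.centralizer (wPart r M : Set X) ≤ M :=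
  c.centralizer_le hM (wPart_le r M) (le_normalizer_wPart r hM.norm)
    (le_normalizer_wPart r Subgroup.le_normalizer) h

theorem Ctx.wPart_ne_bot (c : Ctx q A G) (hM : IsMax A G M) {r : ℕ} (hr : r.Prime) (h : core r M ≠ ⊥) :
    wPart r M ≠ ⊥ := by
  haveI := Fact.mk hr
  obtain ⟨P, hP, hPmax⟩ := c.exists_sylow hM.le hM.norm r
  set R := (P : Subgroup M).map M.subtype with hR
  have hRM : R ≤ M := Subgroup.map_subtype_le _
  have hQR : core r M ≤ R := hPmax _ (core_le r M) (Ctx.norm_coreM hM r) (isPGroup_core hr M)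
  have hRp : IsPGroup r R := P.isPGroup'.map _
  haveI : ((core r M).subgroupOf R).Normal :=
    (Subgroup.normal_subgroupOf_iff_le_normalizer hQR).mpr (hRM.trans (Ctx.norm_coreM' r M))
  have hne := CfsgLib.PGroup.inf_center_ne_bot hRp ((core r M).subgroupOf R) (fun e => h (by
    rw [Subgroup.subgroupOf_eq_bot] at e
    exact le_bot_iff.mp fun x hx => e.le_bot ⟨hx, hQR hx⟩))
  obtain ⟨⟨z, hzR⟩, hz, hz1⟩ := (Subgroup.bot_or_exists_ne_one _).resolve_left hne
  refine fun e => hz1 (Subtype.ext (Subgroup.mem_bot.mp (e ▸ ?_)))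
  have hzQ : z ∈ core r M := hz.1
  have hzRc : ∀ x ∈ R, x * z = z * x := fun x hx =>
    congrArg Subtype.val (Subgroup.mem_center_iff.mp hz.2 ⟨x, hx⟩)
  have hzF : z ∈ Subgroup.centralizer (fit M : Set X) := by
    have hle : fit M ≤ Subgroup.centralizer ({z} : Set X) := fit_le_iff.mpr fun p hp y hy => by
      rw [mem_centralizer_one]
      rcases eq_or_ne p r with rfl | hpr
      · exact (hzRc y (hQR hy)).symm
      · exact Subgroup.mem_centralizer_iff.mp (commute_core hp hr hpr M hy) z hzQ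
    exact Subgroup.mem_centralizer_iff.mpr fun y hy => (mem_centralizer_one.mp (hle hy)).symm
  refine Subgroup.mem_inf.mpr ⟨Subgroup.mem_inf.mpr ⟨hzQ, hzF⟩,
    Subgroup.mem_centralizer_iff.mpr fun x ⟨hxM, k, hk⟩ => ?_⟩
  set N := R ⊔ fit M with hN
  have hNn : M ≤ Subgroup.normalizer (N : Set X) :=
    c.le_normalizer_of_fit_le hM le_sup_right (sup_le hRM (fit_le M))
  have hxp : IsPGroup r (Subgroup.zpowers (⟨x, hxM⟩ : M)) := by
    obtain ⟨j, -, hj⟩ := (Nat.dvd_prime_pow hr).mp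
      (orderOf_dvd_of_pow_eq_one (Subtype.ext hk : (⟨x, hxM⟩ : M) ^ r ^ k = 1))
    exact IsPGroup.of_card (n := j) (by rw [Nat.card_zpowers, hj])
  obtain ⟨Q, hQ⟩ := hxp.exists_le_sylow
  obtain ⟨g, rfl⟩ := MulAction.exists_smul_eq M P Q
  have hg := hQ (Subgroup.mem_zpowers _)
  rw [Sylow.coe_subgroup_smul, Subgroup.mem_pointwise_smul_iff_inv_smul_mem] at hg
  have hxN : x ∈ N := by
    have hm : (g : X)⁻¹ * x * g ∈ N := Subgroup.mem_sup_left ⟨_, hg, by simp⟩
    simpa [mul_assoc] using conj_mem_of_le_normalizer hNn g.2 hm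
  have hle : N ≤ Subgroup.centralizer ({z} : Set X) :=
    sup_le (fun y hy => mem_centralizer_one.mpr (hzRc y hy).symm)
      (fun y hy => mem_centralizer_one.mpr (Subgroup.mem_centralizer_iff.mp hzF y hy).symm)
  exact (mem_centralizer_one.mp (hle hxN)).symm

end CfsgLib.AbelianFix
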